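import Mathlib
import Cfsg.Agent.H58.BG10G
import Cfsg.Agent.H3.OddComm
import Cfsg.Agent.S1451

set_option autoImplicit false
set_option linter.unusedSectionVars false

/-!
# Bender–Glauberman Theorem 10.2 (S1405), piece C of the team project BG10 (helper38)

`bg102 : St1403 G → StSigComm G → St1405 G`.
-/

namespace Cfsg.Agent.H38.BG10C

open Cfsg Subgroup Cfsg.Agent.H58.BG10 Cfsg.Agent.Lib.Helper30 Cfsg.Agent.H31.BG8

universe u

variable {G : Type u} [Group G]

/-- The `p`-rank of a subgroup is at most that of the group. -/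
theorem pRankLE_subtype {X : Type*} [Group X] {q k : ℕ} (h : PRankLE q k X) (F : Subgroup X) :
    PRankLE q k ↥F := by
  intro B hBc hBp
  have h1 := h (B.map F.subtype) ?_ ?_
  · rwa [Subgroup.card_subtype] at h1
  · refine ⟨⟨?_⟩⟩
    rintro ⟨_, ⟨a, ha, rfl⟩⟩ ⟨_, ⟨b, hb, rfl⟩⟩
    apply Subtype.ext
    have h2 := hBc.is_comm.comm ⟨a, ha⟩ ⟨b, hb⟩
    have h3 := congrArg (fun z : B => ((z : F) : X)) h2
    simpa using h3
  · rintro _ ⟨a, ha, rfl⟩
    have h2 := hBp a ha
    have h3 := congrArg (F.subtype) h2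
    simpa using h3

/-- A group whose order is prime to `q` has `q`-rank `0`. -/
theorem pRankLE_of_not_dvd {X : Type*} [Group X] [Finite X] {q k : ℕ} (hq : q.Prime)
    (h : ¬ q ∣ Nat.card X) : PRankLE q k X := by
  intro B _ hBp
  have hB1 : Nat.card B = 1 := by
    by_contra hne
    obtain ⟨r, hr, hrB⟩ := Nat.exists_prime_and_dvd hne
    haveI : Fact r.Prime := ⟨hr⟩
    obtain ⟨x, hx⟩ := exists_prime_orderOf_dvd_card' r hrB
    have h1 : x ^ q = 1 := Subtype.ext (by simpa using hBp x x.2)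
    have h2 : r ∣ q := hx ▸ orderOf_dvd_of_pow_eq_one h1
    have h3 : r = q := (Nat.prime_dvd_prime_iff_eq hr hq).mp h2
    exact h (h3 ▸ hrB.trans (Subgroup.card_subgroup_dvd_card B))
  rw [hB1]; exact Nat.one_le_pow _ _ hq.pos

/-- **B&G Theorem 10.2**, from the Uniqueness Theorem and `M_σ ≤ M'`. -/
theorem bg102 [Finite G] (hG : IsMinSimpleOddOrder G) (h96 : St1403 G) (hT : StSigComm G) :
    St1405 G := by
  intro M hM
  have hMtop : M ≠ ⊤ := hM.1
  haveI hMsolv : Group.IsSolvable M := hG.2.2.2 M hMtop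
  have hodd : Odd (Nat.card M) := hG.1.of_dvd_nat (Subgroup.card_subgroup_dvd_card M)
  obtain ⟨K, hKdef⟩ : ∃ K : Subgroup ↥M, K = piCore (alpha M) ↥M := ⟨_, rfl⟩
  haveI hKn : K.Normal := by rw [hKdef]; infer_instance
  have hKpi : IsPi (alpha M) K := by rw [hKdef]; exact piCore_isPi (alpha M)
  -- `q`-rank of the quotient for `q ∉ α`
  have hq_notin : ∀ q : ℕ, q.Prime → q ∉ alpha M → PRankLE q 2 (↥M ⧸ K) := by
    intro q hq hqα
    haveI : Fact q.Prime := ⟨hq⟩
    have hqM : PRankLE q 2 ↥M := by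
      by_contra h
      exact hqα ⟨hq, h⟩
    have hcop : (Nat.card K).Coprime q := by
      rw [Nat.coprime_comm, Nat.Prime.coprime_iff_not_dvd hq]
      exact fun h => hqα (hKpi q hq h)
    exact Cfsg.Agent.H3.pRankLE_quotient_of_coprime 2 K hcop hqM
  -- `O_p(M/K) = 1` for `p ∈ α`
  have hOp : ∀ p : ℕ, p.Prime → p ∈ alpha M → pCore p (↥M ⧸ K) = ⊥ := by
    intro p hpp hpα
    haveI : Fact p.Prime := ⟨hpp⟩
    obtain ⟨L, hLdef⟩ : ∃ L : Subgroup ↥M,
      L = (pCore p (↥M ⧸ K)).comap (QuotientGroup.mk' K) := ⟨_, rfl⟩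
    have hLn : L.Normal := by rw [hLdef]; infer_instance
    have hLpi : IsPi (alpha M) L := by
      intro r hr hrL
      rw [hLdef, Cfsg.Agent.H3.card_comap_mk'] at hrL
      obtain ⟨a, ha⟩ := IsPGroup.iff_card.mp (Cfsg.Agent.H1.pCore_isPGroup (G := ↥M ⧸ K) p)
      rw [ha] at hrL
      rcases (Nat.Prime.dvd_mul hr).mp hrL with h | h
      · exact hKpi r hr h
      · have := (Nat.prime_dvd_prime_iff_eq hr hpp).mp (hr.dvd_of_dvd_pow h)
        exact this ▸ hpα
    have hLK : L ≤ K := by rw [hKdef]; exact Cfsg.Agent.Lib.Helper30.le_piCore hLn hLpi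
    rw [eq_bot_iff]
    intro x hx
    obtain ⟨y, rfl⟩ := QuotientGroup.mk'_surjective K x
    have hy : y ∈ L := by rw [hLdef]; exact hx
    rw [Subgroup.mem_bot]
    exact (QuotientGroup.eq_one_iff y).mpr (hLK hy)
  have hFnd : ∀ p : ℕ, p.Prime → p ∈ alpha M →
      ¬ p ∣ Nat.card (fittingSubgroup (↥M ⧸ K)) := by
    intro p hpp hpα h
    haveI : Fact p.Prime := ⟨hpp⟩
    exact Cfsg.Agent.H27.pCore_ne_bot_of_dvd_card_fitting h (hOp p hpp hpα)
  -- the Fitting subgroup of the quotient has rank at most 2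
  have hFr : RankLE 2 (fittingSubgroup (↥M ⧸ K)) := by
    intro q hq
    by_cases hqα : q ∈ alpha M
    · exact pRankLE_of_not_dvd hq (hFnd q hq hqα)
    · exact pRankLE_subtype (hq_notin q hq hqα) _
  haveI : Group.IsSolvable (↥M ⧸ K) := inferInstance
  have hoddq : Odd (Nat.card (↥M ⧸ K)) :=
    hodd.of_dvd_nat (Subgroup.card_quotient_dvd_card K)
  have hnil := (Cfsg.Agent.S1451.result (G := ↥M ⧸ K) hoddq (Or.inr hFr)).1
  have hcF : commutator (↥M ⧸ K) ≤ fittingSubgroup (↥M ⧸ K) := le_sSup ⟨inferInstance, hnil⟩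
  have hmapc : (commutator ↥M).map (QuotientGroup.mk' K) = commutator (↥M ⧸ K) := by
    rw [_root_.commutator_def, _root_.commutator_def, Subgroup.map_commutator,
      Subgroup.map_top_of_surjective _ (QuotientGroup.mk'_surjective K)]
  -- Sylow `p`-subgroups of `M` lie in `K` for `p ∈ α`
  have hPK : ∀ p : ℕ, [Fact p.Prime] → p ∈ alpha M → ∀ P : Sylow p M,
      (P : Subgroup M) ≤ K := by
    intro p _ hpα P x hx
    have hpp : p.Prime := Fact.out
    have hσ : p ∈ sigma M := alpha_subset_sigma hG h96 hM hpα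
    have hxc : x ∈ commutator ↥M := hT M hM p hσ P hx
    have hxF : QuotientGroup.mk' K x ∈ fittingSubgroup (↥M ⧸ K) := by
      apply hcF
      rw [← hmapc]
      exact Subgroup.mem_map_of_mem _ hxc
    have h1 : orderOf (QuotientGroup.mk' K x) ∣ Nat.card (fittingSubgroup (↥M ⧸ K)) :=
      Subgroup.orderOf_dvd_natCard _ hxF
    obtain ⟨j, hj⟩ := P.isPGroup' ⟨x, hx⟩
    have hj' : x ^ p ^ j = 1 := by
      have := congrArg Subtype.val hj
      simpa using this
    have h2 : orderOf (QuotientGroup.mk' K x) ∣ p ^ j := by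
      apply orderOf_dvd_of_pow_eq_one
      rw [← map_pow, hj', map_one]
    have hcop : (Nat.card (fittingSubgroup (↥M ⧸ K))).Coprime (p ^ j) :=
      Nat.Coprime.pow_right j
        (Nat.Coprime.symm ((Nat.Prime.coprime_iff_not_dvd hpp).mpr (hFnd p hpp hpα)))
    have hone : orderOf (QuotientGroup.mk' K x) = 1 := Nat.eq_one_of_dvd_coprimes hcop h1 h2
    rw [orderOf_eq_one_iff] at hone
    exact (QuotientGroup.eq_one_iff x).mp hone
  have hKidx : ∀ p : ℕ, p.Prime → p ∈ alpha M → ¬ p ∣ K.index := by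
    intro p hpp hpα h
    haveI : Fact p.Prime := ⟨hpp⟩
    obtain ⟨P⟩ : Nonempty (Sylow p M) := inferInstance
    exact P.not_dvd_index (h.trans (Subgroup.index_dvd_of_le (hPK p hpα P)))
  have hMidx : ∀ p : ℕ, p.Prime → p ∈ alpha M → ¬ p ∣ M.index := by
    intro p hpp hpα h
    haveI : Fact p.Prime := ⟨hpp⟩
    obtain ⟨P⟩ : Nonempty (Sylow p M) := inferInstance
    have hN := normalizer_sylow_le_of_rank hG h96 hM hpα.2 P
    obtain ⟨T, hTeq⟩ := sylow_of_normalizer_le P hN
    have h1 : M.index ∣ (T : Subgroup G).index :=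
      Subgroup.index_dvd_of_le (by rw [hTeq]; exact Subgroup.map_subtype_le _)
    exact T.not_dvd_index (h.trans h1)
  subst hKdef
  have hcardα : ∀ p : ℕ, p.Prime → p ∣ Nat.card (alphaCore M) → p ∈ alpha M := by
    intro p hpp hp
    unfold alphaCore at hp
    rw [Subgroup.card_subtype] at hp
    exact hKpi p hpp hp
  have hsub : (alphaCore M).subgroupOf M = piCore (alpha M) ↥M := by
    unfold alphaCore
    exact Subgroup.comap_map_eq_self_of_injective (Subgroup.subtype_injective _) _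
  refine ⟨⟨?_, hcardα, ?_⟩, ⟨hcardα, ?_⟩, ?_, ?_, ?_⟩
  · unfold alphaCore; exact Subgroup.map_subtype_le _
  · intro p hpp hpα
    unfold Subgroup.relIndex
    rw [hsub]
    exact hKidx p hpp hpα
  · intro p hpp hpα h
    unfold alphaCore at h
    rw [Subgroup.index_map_subtype] at h
    rcases (Nat.Prime.dvd_mul hpp).mp h with h | h
    · exact hKidx p hpp hpα h
    · exact hMidx p hpp hpα h
  · unfold alphaCore sigmaCore
    apply Subgroup.map_mono
    apply Cfsg.Agent.Lib.Helper30.le_piCore hKn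
    intro p hpp hp
    exact alpha_subset_sigma hG h96 hM (hKpi p hpp hp)
  · intro q hq
    by_cases hqα : q ∈ alpha M
    · apply pRankLE_of_not_dvd hq
      rw [← Subgroup.index_eq_card]
      exact hKidx q hq hqα
    · exact hq_notin q hq hqα
  · have h := hnil
    rw [← hmapc] at h
    exact h

end Cfsg.Agent.H38.BG10C
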