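import Mathlib
import Cfsg.Agent.H31.BG9b

set_option autoImplicit false
set_option linter.unusedSectionVars false

/-!
# Small pieces for Bender–Glauberman Lemma 9.5 (helper38)
-/

namespace Cfsg.Agent.H38.BG95

open Cfsg Subgroup Cfsg.Agent.Lib.Helper30 Cfsg.Agent.H31.X.H37.Bender Cfsg.Agent.H58
  Cfsg.Agent.H31.T2 Cfsg.Agent.H31.BG8 Cfsg.Agent.H31.BG9 Cfsg.Agent.H31.X.H54

open scoped commutatorElement

universe u

variable {G : Type u} [Group G]

/-- PIECE PG5.  The derived group of a group normalizing a group of order `1` or `s` centralizes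
it. -/
theorem comm_le_centralizer [Finite G] {s : ℕ} [Fact s.Prime] {Y D : Subgroup G}
    (hY : IsPGroup s Y) (hlt : Nat.card Y < s ^ 2) (hD : D ≤ normalizer (Y : Set G)) :
    ⁅D, D⁆ ≤ centralizer (Y : Set G) := by
  have hs : s.Prime := Fact.out
  have hcyc : IsCyclic Y := by
    obtain ⟨k, hk⟩ := IsPGroup.iff_card.mp hY
    rw [hk] at hlt
    have hk2 : k < 2 := (Nat.pow_lt_pow_iff_right hs.one_lt).mp hlt
    interval_cases k
    · have h1 : Nat.card Y = 1 := by simpa using hk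
      have : Subsingleton Y := (Nat.card_eq_one_iff_unique.mp h1).1
      exact isCyclic_of_subsingleton
    · exact isCyclic_of_prime_card (p := s) (by simpa using hk)
  obtain ⟨g, hg⟩ := hcyc.exists_generator
  have hpow : ∀ x ∈ normalizer (Y : Set G), ∃ i : ℤ, x * (g : G) * x⁻¹ = (g : G) ^ i := by
    intro x hx
    have h1 : x * (g : G) * x⁻¹ ∈ Y := (Subgroup.mem_normalizer_iff.mp hx (g : G)).mp g.2
    obtain ⟨i, hi⟩ := Subgroup.mem_zpowers_iff.mp (hg ⟨_, h1⟩)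
    refine ⟨i, ?_⟩
    have := congrArg Subtype.val hi
    simpa using this.symm
  have hkey : ∀ x ∈ normalizer (Y : Set G), ∀ y ∈ normalizer (Y : Set G),
      x * y * (g : G) * (x * y)⁻¹ = y * x * (g : G) * (y * x)⁻¹ := by
    intro x hx y hy
    obtain ⟨i, hi⟩ := hpow x hx
    obtain ⟨j, hj⟩ := hpow y hy
    have e1 : x * y * (g : G) * (x * y)⁻¹ = x * (y * g * y⁻¹) * x⁻¹ := by group
    have e2 : y * x * (g : G) * (y * x)⁻¹ = y * (x * g * x⁻¹) * y⁻¹ := by group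
    have e3 : x * (g : G) ^ j * x⁻¹ = (x * g * x⁻¹) ^ j := (conj_zpow).symm
    have e4 : y * (g : G) ^ i * y⁻¹ = (y * g * y⁻¹) ^ i := (conj_zpow).symm
    rw [e1, e2, hi, hj, e3, e4, hi, hj, ← zpow_mul, ← zpow_mul, mul_comm]
  rw [Subgroup.commutator_le]
  intro x hx y hy
  rw [Subgroup.mem_centralizer_iff]
  intro z hz
  obtain ⟨k, hk⟩ := Subgroup.mem_zpowers_iff.mp (hg ⟨z, hz⟩)
  have hzk : z = (g : G) ^ k := by
    have := congrArg Subtype.val hk
    simpa using this.symm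
  have h2 : ⁅x, y⁆ * (g : G) * ⁅x, y⁆⁻¹ = g := by
    have h := hkey x⁻¹ (inv_mem (hD hx)) y⁻¹ (inv_mem (hD hy))
    have e1 : ⁅x, y⁆ * (g : G) * ⁅x, y⁆⁻¹ =
        x * y * (x⁻¹ * y⁻¹ * (g : G) * (x⁻¹ * y⁻¹)⁻¹) * (x * y)⁻¹ := by
      rw [commutatorElement_def]; group
    rw [e1, h]; group
  have hcg : Commute ⁅x, y⁆ (g : G) := by
    have := mul_inv_eq_iff_eq_mul.mp h2
    exact this
  rw [hzk]
  exact (hcg.zpow_right k).eq.symm

/-- An element of `F(M)` of `s`-power order lies in `O_s(M)`. -/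
theorem mem_pCoreOf_of_pow [Finite G] {s : ℕ} [Fact s.Prime] {M : Subgroup G} {g : G}
    (hg : g ∈ FOf M) {k : ℕ} (hgk : g ^ s ^ k = 1) : g ∈ Cfsg.pCoreOf s M := by
  have hs : s.Prime := Fact.out
  obtain ⟨u, hu, c, hc, rfl⟩ := exists_decomp s M hg
  have hcomm : Commute u c :=
    (Subgroup.mem_centralizer_iff.mp (compOf_le_centralizer s M hc) u hu)
  obtain ⟨m, hm⟩ := (isPGroup_pCoreOf (p := s) M) ⟨u, hu⟩
  have hum : u ^ s ^ m = 1 := by
    have := congrArg Subtype.val hm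
    simpa using this
  have hun : u ^ s ^ (m + k) = 1 := by
    rw [pow_add, pow_mul, hum, one_pow]
  have hgn : (u * c) ^ s ^ (m + k) = 1 := by
    rw [pow_add, mul_comm, pow_mul, hgk, one_pow]
  have hcn : c ^ s ^ (m + k) = 1 := by
    rw [hcomm.mul_pow, hun, one_mul] at hgn
    exact hgn
  have hord1 : orderOf c ∣ s ^ (m + k) := orderOf_dvd_of_pow_eq_one hcn
  have hord2 : orderOf c ∣ Nat.card (compOf s M) := by
    have := Subgroup.orderOf_dvd_natCard (compOf s M) hc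
    exact this
  have hcop : (Nat.card (compOf s M)).Coprime (s ^ (m + k)) :=
    Nat.Coprime.pow_right _ (card_compOf_coprime s M)
  have h1 : orderOf c = 1 := Nat.eq_one_of_dvd_coprimes hcop hord2 hord1
  rw [orderOf_eq_one_iff] at h1
  rw [h1, mul_one]
  exact hu

/-- PIECE BGT.  A normal `s`-subgroup of rank at least 3. -/
theorem exists_T [Finite G] {M : Subgroup G} {s : ℕ} [Fact s.Prime]
    (hF : ¬ PRankLE s 2 ↥(fittingOf M)) :
    ∃ T : Subgroup G, T ≤ M ∧ M ≤ normalizer (T : Set G) ∧ IsPGroup s T ∧ ¬ PRankLE s 2 ↥T := by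
  have hF' : ¬ PRankLE s 2 ↥(FOf M) := hF
  obtain ⟨B, hBF, hBc, hBp, hBcard⟩ := exists_elementary_of_not_pRankLE hF'
  refine ⟨Cfsg.pCoreOf s M, pCoreOf_le M, le_normalizer_pCoreOf M, isPGroup_pCoreOf M, ?_⟩
  refine not_pRankLE_of_le (B := B) ?_ ⟨⟨⟨fun a b => Subtype.ext (hBc a a.2 b b.2)⟩⟩, hBp⟩ hBcard
  intro b hb
  exact mem_pCoreOf_of_pow (k := 1) (hBF hb) (by rw [pow_one]; exact hBp b hb)

end Cfsg.Agent.H38.BG95
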