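import Mathlib
import Cfsg.Agent.H38.BG95A

set_option autoImplicit false
set_option linter.unusedSectionVars false

/-!
# The key lemma of Bender–Glauberman Lemma 9.5 for a maximal subgroup with Fitting subgroup of
rank at most 2 (helper38)
-/

namespace Cfsg.Agent.H38.BG95

open Cfsg Subgroup Cfsg.Agent.Lib.Helper30 Cfsg.Agent.H31.X.H37.Bender Cfsg.Agent.H58
  Cfsg.Agent.H31.T2 Cfsg.Agent.H31.BG8 Cfsg.Agent.H31.BG9 Cfsg.Agent.H31.X.H54

open scoped commutatorElement

universe u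

variable {G : Type u} [Group G]

/-- PIECE BGS.  The key lemma for a maximal subgroup `H` with Fitting subgroup of rank at most
2. -/
theorem small_case [Finite G] (hG : IsMinSimpleOddOrder G) {s : ℕ} [Fact s.Prime]
    {A M W H : Subgroup G} (hM : IsCoatom M) (hH : IsCoatom H) (hAM : A ≤ M) (hAH : A ≤ H)
    (hHM : H ≠ M) (hsmall : RankLE 2 (fittingSubgroup ↥H))
    (hWs : IsPGroup s W) (hMW : M ≤ normalizer (W : Set G))
    (hi : ∀ u ∈ W, u ≠ 1 → normalizer ((zpowers u : Subgroup G) : Set G) ≤ M)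
    (hii : ∀ U : Subgroup G, U ≤ W → s ^ 2 ≤ Nat.card U →
      ∀ L : Subgroup G, IsCoatom L → U ≤ L → L = M)
    (hb3 : ∀ Y : Subgroup G, IsPGroup s Y → A ≤ normalizer (Y : Set G) → Y ≤ M)
    (hU1 : ∀ g : G, A ≤ M.map (MulAut.conj g).toMonoidHom → g ∈ M) :
    A ≤ centralizer ((W ⊓ H : Subgroup G) : Set G) := by
  have hs : s.Prime := Fact.out
  have hHtop : H ≠ ⊤ := hH.1
  haveI hHsolv : Group.IsSolvable H := hG.2.2.2 H hHtop
  have hodd : Odd (Nat.card H) := hG.1.of_dvd_nat (Subgroup.card_subgroup_dvd_card H)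
  have hnil := (Cfsg.Agent.S1451.result (G := ↥H) hodd (Or.inr hsmall)).1
  have hcomm : commutator ↥H ≤ fittingSubgroup ↥H := le_sSup ⟨inferInstance, hnil⟩
  -- commutators of elements of `H` lie in `F(H)`
  have hcF : ∀ x ∈ H, ∀ y ∈ H, ⁅x, y⁆ ∈ FOf H := by
    intro x hx y hy
    have h1 : ⁅(⟨x, hx⟩ : H), ⟨y, hy⟩⁆ ∈ commutator ↥H := by
      rw [_root_.commutator_def]
      exact Subgroup.commutator_mem_commutator (Subgroup.mem_top _) (Subgroup.mem_top _)
    exact ⟨_, hcomm h1, by simp [commutatorElement_def]⟩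
  -- notation
  obtain ⟨V, hVdef⟩ : ∃ V : Subgroup G, V = Cfsg.pCoreOf s H := ⟨_, rfl⟩
  have hVH : V ≤ H := by rw [hVdef]; exact pCoreOf_le H
  have hHV : H ≤ normalizer (V : Set G) := by rw [hVdef]; exact le_normalizer_pCoreOf H
  have hVs : IsPGroup s V := by rw [hVdef]; exact isPGroup_pCoreOf H
  have hVM : V ≤ M := hb3 V hVs (hAH.trans hHV)
  obtain ⟨Y, hYdef⟩ : ∃ Y : Subgroup G, Y = W ⊓ V := ⟨_, rfl⟩
  have hYW : Y ≤ W := by rw [hYdef]; exact inf_le_left
  have hYV : Y ≤ V := by rw [hYdef]; exact inf_le_right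
  have hYlt : Nat.card Y < s ^ 2 := by
    by_contra hge
    push Not at hge
    exact hHM (hii Y hYW hge H hH (hYV.trans hVH))
  have hninf : ∀ g : G, g ∈ normalizer (W : Set G) → g ∈ normalizer (V : Set G) →
      g ∈ normalizer (Y : Set G) := by
    intro g h1 h2
    rw [Subgroup.mem_normalizer_iff] at h1 h2 ⊢
    intro x
    rw [hYdef, Subgroup.mem_inf, Subgroup.mem_inf, h1 x, h2 x]
  have hFY : FOf H ≤ normalizer (Y : Set G) := by
    intro f hf
    obtain ⟨u, hu, c, hc, rfl⟩ := exists_decomp s H hf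
    have hu' : u ∈ V := by rw [hVdef]; exact hu
    refine mul_mem (hninf u (hMW (hVM hu')) (le_normalizer hu')) ?_
    have hcV : c ∈ centralizer (V : Set G) := by
      rw [hVdef]; exact compOf_le_centralizer s H hc
    exact Subgroup.centralizer_le_normalizer _ (Subgroup.centralizer_le hYV hcV)
  have hAY : A ≤ normalizer (Y : Set G) :=
    fun a ha => hninf a (hMW (hAM ha)) (hHV (hAH ha))
  -- `Y` is trivial
  have hY : Y = ⊥ := by
    by_contra hY0
    obtain ⟨u, hu1⟩ := (Subgroup.ne_bot_iff_exists_ne_one).mp hY0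
    have hu1' : (u : G) ≠ 1 := fun h => hu1 (Subtype.ext h)
    have hYz : (zpowers (u : G) : Subgroup G) = Y := by
      have hle : (zpowers (u : G) : Subgroup G) ≤ Y := by
        rw [Subgroup.zpowers_le]; exact u.2
      apply Subgroup.eq_of_le_of_card_ge hle
      obtain ⟨k, hk⟩ := IsPGroup.iff_card.mp (hWs.to_le hYW)
      rw [hk] at hYlt ⊢
      have hk2 : k < 2 := (Nat.pow_lt_pow_iff_right hs.one_lt).mp hYlt
      have hord : orderOf (u : G) ∣ s ^ k := by
        rw [← hk]; exact Subgroup.orderOf_dvd_natCard Y u.2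
      rw [Nat.card_zpowers]
      interval_cases k
      · exfalso
        rw [pow_zero, Nat.dvd_one, orderOf_eq_one_iff] at hord
        exact hu1' hord
      · rw [pow_one] at hord ⊢
        rcases (Nat.dvd_prime hs).mp hord with h | h
        · rw [orderOf_eq_one_iff] at h
          exact absurd h hu1'
        · exact h.ge
    have hNY : normalizer (Y : Set G) ≤ M := by
      rw [← hYz]; exact hi (u : G) (hYW u.2) hu1'
    have hHleM : H ≤ M := by
      intro h hh
      apply hU1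
      intro a ha
      have hn : h⁻¹ * a * h ∈ normalizer (Y : Set G) := by
        have e : h⁻¹ * a * h = a * ⁅a⁻¹, h⁻¹⁆ := by
          rw [commutatorElement_def]; group
        rw [e]
        exact mul_mem (hAY ha)
          (hFY (hcF _ (inv_mem (hAH ha)) _ (inv_mem hh)))
      refine ⟨h⁻¹ * a * h, hNY hn, ?_⟩
      simp only [MulEquiv.coe_toMonoidHom, MulAut.conj_apply]
      group
    exact hHM (by
      by_contra hne
      exact hM.1 (hH.2 M (lt_of_le_of_ne hHleM hne)))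
  -- conclusion
  intro a ha
  rw [Subgroup.mem_centralizer_iff]
  intro w hw
  have hwW : w ∈ W := hw.1
  have hwH : w ∈ H := hw.2
  have hc1 : ⁅w, a⁆ ∈ FOf H := hcF w hwH a (hAH ha)
  have hc2 : ⁅w, a⁆ ∈ W := by
    rw [commutatorElement_def]
    have h1 : a * w⁻¹ * a⁻¹ ∈ W :=
      (Subgroup.mem_normalizer_iff.mp (hMW (hAM ha)) w⁻¹).mp (inv_mem hwW)
    have e : w * a * w⁻¹ * a⁻¹ = w * (a * w⁻¹ * a⁻¹) := by group
    rw [e]
    exact mul_mem hwW h1
  obtain ⟨k, hk⟩ := hWs ⟨⁅w, a⁆, hc2⟩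
  have hk' : ⁅w, a⁆ ^ s ^ k = 1 := by
    have := congrArg Subtype.val hk
    simpa using this
  have hc3 : ⁅w, a⁆ ∈ V := by
    rw [hVdef]; exact mem_pCoreOf_of_pow hc1 hk'
  have hc4 : ⁅w, a⁆ ∈ Y := by rw [hYdef]; exact ⟨hc2, hc3⟩
  rw [hY, Subgroup.mem_bot] at hc4
  exact (commutatorElement_eq_one_iff_mul_comm.mp hc4)

end Cfsg.Agent.H38.BG95
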