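import Mathlib
import Cfsg.Agent.S1395
import Cfsg.Agent.S1396
import Cfsg.Agent.S1398
import Cfsg.Agent.S1399
import Cfsg.Agent.S1400
import Cfsg.Agent.S1401
import Cfsg.Agent.S1451
import Cfsg.Agent.S1452
import Cfsg.Agent.S0126
import Cfsg.Agent.S0118
import Cfsg.Agent.S1242
import Cfsg.Agent.S1457
import Cfsg.Agent.H31.BG9a
import Cfsg.Agent.H31.BG9b
import Cfsg.Agent.H31.BG9c
import Cfsg.Agent.H38.BG95A
import Cfsg.Agent.H38.BG95S
import Cfsg.Agent.H40.BG95PG1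
import Cfsg.Agent.H53.BG95PG2
import Cfsg.Agent.H53.BG95PG3
import Cfsg.Agent.H37.BG95T
import Cfsg.Agent.Lib.Helper30.BG95Big

set_option autoImplicit false

/-!
# Bender–Glauberman Lemma 9.5 (S1402): the pieces of the TEAM PROJECT S1402-BG95 (helper38),
proved by helper40 (PG1), helper53 (PG2, PG3), helper31 (BGI), helper30 (BGB), helper37 (BGT1)
-/

namespace Cfsg.Agent.H38.BG95

open Cfsg Subgroup

universe u

variable {G : Type u} [Group G]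

/-! ## Pure group theory pieces -/

/-- PIECE PG1.  The characteristic subgroup `W = {x ∈ T : x ^ s = 1, [x, T] ≤ Ω₁(Z(T))}`. -/
theorem exists_W [Finite G] {s : ℕ} [Fact s.Prime] (hs2 : s ≠ 2) {T : Subgroup G}
    (hT : IsPGroup s T) (hTr : ¬ PRankLE s 2 ↥T) :
    ∃ W : Subgroup G, W ≤ T ∧ normalizer (T : Set G) ≤ normalizer (W : Set G) ∧
      s ^ 2 ≤ Nat.card W ∧
      (∀ u ∈ W, u ≠ 1 → ∃ A' : Subgroup G, A' ≤ T ∧ IsMulCommutative A' ∧ ¬ PRankLE s 2 ↥A' ∧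
          A' ≤ centralizer ({u} : Set G)) ∧
      (∀ U : Subgroup G, U ≤ W → s ^ 2 ≤ Nat.card U →
        ∃ U₂ : Subgroup G, U₂ ≤ U ∧ ¬ IsCyclic U₂ ∧
          ∃ A' : Subgroup G, A' ≤ T ∧ IsMulCommutative A' ∧ ¬ PRankLE s 2 ↥A' ∧
            A' ≤ centralizer (U₂ : Set G)) :=
  Cfsg.Agent.H40.BG95.exists_W hs2 hT hTr

/-- PIECE PG2.  A good element. -/
theorem exists_good [Finite G] {p s : ℕ} [Fact p.Prime] [Fact s.Prime] (hps : p ≠ s)
    {E W : Subgroup G} (hE : IsElementaryAbelian p E) (hE3 : p ^ 3 ≤ Nat.card E)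
    (hW : IsPGroup s W) (hW2 : s ^ 2 ≤ Nat.card W) (hEW : E ≤ normalizer (W : Set G)) :
    ∃ y ∈ E, y ≠ 1 ∧ s ^ 2 ≤ Nat.card (W ⊓ centralizer ({y} : Set G) : Subgroup G) :=
  Cfsg.Agent.H53.BG95.exists_good hps hE hE3 hW hW2 hEW

/-- PIECE PG3.  The final step. -/
theorem exists_B [Finite G] {p : ℕ} [Fact p.Prime] {A E W : Subgroup G}
    (hAc : IsMulCommutative A) (hEA : E ≤ A) (hE : IsElementaryAbelian p E)
    (hE3 : p ^ 3 ≤ Nat.card E) (hW : (Nat.card W).Coprime p)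
    (hAW : A ≤ normalizer (W : Set G)) (hne : ¬ A ≤ centralizer (W : Set G)) :
    ∃ B : Subgroup G, B ≤ E ∧ IsElementaryAbelian p B ∧ ¬ IsCyclic B ∧
      ¬ A ≤ centralizer ((W ⊓ centralizer (B : Set G) : Subgroup G) : Set G) :=
  Cfsg.Agent.H53.BG95.exists_B hAc hEA hE hE3 hW hAW hne

/-! ## Bender–Glauberman pieces -/

/-- PIECE BGI.  Case I: every maximal subgroup containing `A` has Fitting subgroup of rank at
most 2. -/
theorem case_small [Finite G] (hG : IsMinSimpleOddOrder G) {p : ℕ} [Fact p.Prime] (P : Sylow p G)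
    {A : Subgroup G} (hA : IsSCN (P : Subgroup G) A) (hA3 : ¬ PRankLE p 2 ↥A)
    (hsmall : ∀ H : Subgroup G, IsCoatom H → A ≤ H → RankLE 2 (fittingSubgroup ↥H)) :
    InUniqueMaximal A :=
  Cfsg.Agent.H31.BG9.bg95_small hG p P A hA hA3 hsmall

/-- PIECE BGB.  The package (b3), (b4), (U1) for a maximal subgroup `M ≥ A` with
`r_s(F(M)) ≥ 3`, given a good element. -/
theorem big_pack [Finite G] (hG : IsMinSimpleOddOrder G) {p : ℕ} [Fact p.Prime] (P : Sylow p G)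
    {A : Subgroup G} (hA : IsSCN (P : Subgroup G) A) (hA3 : ¬ PRankLE p 2 ↥A)
    {M : Subgroup G} (hM : IsCoatom M) (hAM : A ≤ M) {s : ℕ} [Fact s.Prime] (hsp : s ≠ p)
    (hF : ¬ PRankLE s 2 ↥(fittingOf M))
    {T : Subgroup G} (hTM : T ≤ M) (hMT : M ≤ normalizer (T : Set G)) (hT : IsPGroup s T)
    (hTr : ¬ PRankLE s 2 ↥T)
    (hy : ∃ y ∈ A, y ≠ 1 ∧ centralizer ({y} : Set G) ≤ M) :
    (∀ Y : Subgroup G, IsPGroup s Y → A ≤ normalizer (Y : Set G) → Y ≤ M) ∧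
    (∀ R : Subgroup G, IsPGroup p R → A ≤ R → normalizer (R : Set G) ≤ M) ∧
    (∀ g : G, A ≤ M.map (MulAut.conj g).toMonoidHom → g ∈ M) :=
  Cfsg.Agent.Lib.Helper30.BG95.big_pack hG P hA hA3 hM hAM hsp hF hTM hMT hT hTr hy

/-- PIECE BGT1.  Transfer. -/
theorem transfer_T1 [Finite G] (hG : IsMinSimpleOddOrder G) {p : ℕ} [Fact p.Prime] (P : Sylow p G)
    {A : Subgroup G} (hAP : A ≤ (P : Subgroup G)) (hAc : IsMulCommutative A)
    (hAn : (P : Subgroup G) ≤ normalizer (A : Set G))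
    {D : Subgroup G}
    (hD : ∀ R : Subgroup G, IsPGroup p R → A ≤ R → normalizer (R : Set G) ≤ D) :
    (P : Subgroup G) ≤ ⁅D, D⁆ :=
  Cfsg.Agent.H37.BG95.transfer_T1 hG P hAP hAc hAn hD

end Cfsg.Agent.H38.BG95
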