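import Mathlib
import Cfsg.Agent.H38.BG95Skel

set_option autoImplicit false
set_option linter.unusedSectionVars false

/-!
# Bender–Glauberman Lemma 9.5 (S1402): assembly (helper38)
-/

namespace Cfsg.Agent.H38.BG95

open Cfsg Subgroup Cfsg.Agent.Lib.Helper30 Cfsg.Agent.H31.X.H37.Bender Cfsg.Agent.H58
  Cfsg.Agent.H31.T2 Cfsg.Agent.H31.BG8 Cfsg.Agent.H31.BG9

universe u

variable {G : Type u} [Group G]

theorem inUnique_mono [Finite G] {X Y : Subgroup G} (hX : InUniqueMaximal X) (hXY : X ≤ Y)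
    (hY : Y ≠ ⊤) : InUniqueMaximal Y := by
  obtain ⟨M, ⟨hM, hXM⟩, huniq⟩ := hX
  obtain ⟨L, hL, hYL⟩ := (eq_top_or_exists_le_coatom Y).resolve_left hY
  have hLM : L = M := huniq L ⟨hL, hXY.trans hYL⟩
  subst hLM
  exact ⟨L, ⟨hL, hYL⟩, fun L' hL' => huniq L' ⟨hL'.1, hXY.trans hL'.2⟩⟩

theorem le_of_inUnique [Finite G] {X Y M : Subgroup G} (hX : InUniqueMaximal X)
    (hM : IsCoatom M) (hXM : X ≤ M) (hXY : X ≤ Y) (hY : Y ≠ ⊤) : Y ≤ M := by
  obtain ⟨L, hL, hYL⟩ := (eq_top_or_exists_le_coatom Y).resolve_left hY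
  have h1 : L = M := hX.unique ⟨hL, hXY.trans hYL⟩ ⟨hM, hXM⟩
  exact h1 ▸ hYL

theorem pack2 [Finite G] (hG : IsMinSimpleOddOrder G) {M : Subgroup G} (hM : IsCoatom M)
    {s : ℕ} [Fact s.Prime] (hF : ¬ PRankLE s 2 ↥(fittingOf M))
    {T W : Subgroup G} (hTM : T ≤ M) (hT : IsPGroup s T) (hWT : W ≤ T)
    (h5 : ∀ u ∈ W, u ≠ 1 → ∃ A' : Subgroup G, A' ≤ T ∧ IsMulCommutative A' ∧
      ¬ PRankLE s 2 ↥A' ∧ A' ≤ centralizer ({u} : Set G))
    (h6 : ∀ U : Subgroup G, U ≤ W → s ^ 2 ≤ Nat.card U →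
        ∃ U₂ : Subgroup G, U₂ ≤ U ∧ ¬ IsCyclic U₂ ∧
          ∃ A' : Subgroup G, A' ≤ T ∧ IsMulCommutative A' ∧ ¬ PRankLE s 2 ↥A' ∧
            A' ≤ centralizer (U₂ : Set G)) :
    (∀ u ∈ W, u ≠ 1 → ∀ X : Subgroup G, X ≠ ⊤ → centralizer ({u} : Set G) ≤ X → X ≤ M) ∧
    (∀ U : Subgroup G, U ≤ W → s ^ 2 ≤ Nat.card U →
        ∃ U₂ : Subgroup G, U₂ ≤ U ∧ InUniqueMaximal U₂) := by
  have hAU : ∀ A' : Subgroup G, A' ≤ T → IsMulCommutative A' → ¬ PRankLE s 2 ↥A' →
      InUniqueMaximal A' :=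
    fun A' hA'T hA'c hA'r => Cfsg.Agent.S1401.result hG M hM s hF A' (hT.to_le hA'T) hA'c hA'r
  refine ⟨?_, ?_⟩
  · intro u hu hu1 X hX hcX
    obtain ⟨A', hA'T, hA'c, hA'r, hA'u⟩ := h5 u hu hu1
    exact le_of_inUnique (hAU A' hA'T hA'c hA'r) hM (hA'T.trans hTM) (hA'u.trans hcX) hX
  · intro U hUW hU2
    obtain ⟨U₂, hU₂U, hnc, A', hA'T, hA'c, hA'r, hA'U⟩ := h6 U hUW hU2
    refine ⟨U₂, hU₂U, ?_⟩
    have hB3 : ¬ PRankLE s 2 ↥(centralizer (U₂ : Set G)) := by
      obtain ⟨B, hBA', hBc, hBp, hBcard⟩ := exists_elementary_of_not_pRankLE hA'r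
      exact not_pRankLE_of_le (hBA'.trans hA'U)
        ⟨⟨⟨fun a b => Subtype.ext (hBc a a.2 b b.2)⟩⟩, hBp⟩ hBcard
    exact Cfsg.Agent.S1400.result hG s A' U₂ (hT.to_le hA'T) hA'c hA'r (hAU A' hA'T hA'c hA'r)
      (hT.to_le ((hU₂U.trans hUW).trans hWT)) hnc hB3

/-- All the data attached to a maximal subgroup `M ≥ A` whose Fitting subgroup has rank at least
3. -/
theorem big_data [Finite G] (hG : IsMinSimpleOddOrder G) {p : ℕ} [Fact p.Prime] (P : Sylow p G)
    {A : Subgroup G} (hA : IsSCN (P : Subgroup G) A) (hA3 : ¬ PRankLE p 2 ↥A)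
    (hN1 : ∀ H : Subgroup G, IsCoatom H → PRankLE p 2 ↥(fittingOf H))
    {M : Subgroup G} (hM : IsCoatom M) (hAM : A ≤ M) (hMr : ¬ RankLE 2 (fittingSubgroup ↥M)) :
    ∃ (s : ℕ) (_ : Fact s.Prime) (W : Subgroup G), s ≠ p ∧ IsPGroup s W ∧ W ≤ M ∧
      M ≤ normalizer (W : Set G) ∧ s ^ 2 ≤ Nat.card W ∧
      (∀ u ∈ W, u ≠ 1 → normalizer ((zpowers u : Subgroup G) : Set G) ≤ M) ∧
      (∀ U : Subgroup G, U ≤ W → s ^ 2 ≤ Nat.card U →
        ∃ U₂ : Subgroup G, U₂ ≤ U ∧ InUniqueMaximal U₂) ∧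
      (∀ Y : Subgroup G, IsPGroup s Y → A ≤ normalizer (Y : Set G) → Y ≤ M) ∧
      (∀ R : Subgroup G, IsPGroup p R → A ≤ R → normalizer (R : Set G) ≤ M) ∧
      (∀ g : G, A ≤ M.map (MulAut.conj g).toMonoidHom → g ∈ M) := by
  have hp : p.Prime := Fact.out
  unfold RankLE at hMr
  push Not at hMr
  obtain ⟨s, hs, hsr⟩ := hMr
  haveI : Fact s.Prime := ⟨hs⟩
  unfold PRankLE at hsr
  push Not at hsr
  obtain ⟨E₀, hE₀c, hE₀p, hE₀card⟩ := hsr
  obtain ⟨A₀, hA₀def⟩ : ∃ A₀ : Subgroup G,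
    A₀ = (E₀.map (fittingSubgroup ↥M).subtype).map M.subtype := ⟨_, rfl⟩
  have hA₀F : A₀ ≤ FOf M := by
    rw [hA₀def]; exact Subgroup.map_mono (Subgroup.map_subtype_le _)
  have hA₀card : Nat.card A₀ = Nat.card E₀ := by
    rw [hA₀def, Subgroup.card_subtype, Subgroup.card_subtype]
  have hA₀e : IsElementaryAbelian s A₀ := by
    rw [hA₀def]
    exact isElementaryAbelian_map _ (isElementaryAbelian_map _ ⟨hE₀c, hE₀p⟩)
  have hA₀lt : s ^ 2 < Nat.card A₀ := by rw [hA₀card]; exact hE₀card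
  have hF : ¬ PRankLE s 2 ↥(fittingOf M) := not_pRankLE_of_le hA₀F hA₀e hA₀lt
  have hsp : s ≠ p := by
    rintro rfl
    exact hF (hN1 M hM)
  have hA₀1 : 1 < Nat.card A₀ := lt_of_le_of_lt (Nat.one_le_pow _ _ hs.pos) hA₀lt
  have hsF : s ∣ Nat.card (FOf M) := dvd_card_of_exponent_prime hA₀F hA₀e.2 hA₀1
  have hs2 : s ≠ 2 := ne_two_of_dvd hG (hsF.trans (Subgroup.card_subgroup_dvd_card _))
  obtain ⟨T, hTM, hMT, hT, hTr⟩ := exists_T hF
  obtain ⟨W, hWT, hNW, hW2, h5, h6⟩ := exists_W hs2 hT hTr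
  obtain ⟨hi, hii⟩ := pack2 hG hM hF hTM hT hWT h5 h6
  have hWs : IsPGroup s W := hT.to_le hWT
  have hMW : M ≤ normalizer (W : Set G) := hMT.trans hNW
  -- an elementary abelian subgroup of order `p ^ 3` in `A`
  obtain ⟨E, hEA, hEc, hEp, hEcard⟩ := exists_elementary_of_not_pRankLE hA3
  have hEe : IsElementaryAbelian p E := ⟨⟨⟨fun a b => Subtype.ext (hEc a a.2 b b.2)⟩⟩, hEp⟩
  have hE3 : p ^ 3 ≤ Nat.card E := pow_succ_le_card_of_lt (isPGroup_of_exponent hEp) hEcard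
  obtain ⟨y, hyE, hy1, hyc⟩ := exists_good (Ne.symm hsp) hEe hE3 hWs hW2
    (hEA.trans (hAM.trans hMW))
  have hcy : centralizer ({y} : Set G) ≠ ⊤ := minSimple_centralizer_singleton_ne_top hG hy1
  have hy : centralizer ({y} : Set G) ≤ M := by
    obtain ⟨U₂, hU₂, hU₂u⟩ := hii _ inf_le_left hyc
    exact le_of_inUnique hU₂u hM (((hU₂.trans inf_le_left).trans hWT).trans hTM)
      (hU₂.trans inf_le_right) hcy
  obtain ⟨hb3, hb4, hU1⟩ := big_pack hG P hA hA3 hM hAM hsp hF hTM hMT hT hTr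
    ⟨y, hEA hyE, hy1, hy⟩
  refine ⟨s, inferInstance, W, hsp, hWs, hWT.trans hTM, hMW, hW2, ?_, hii, hb3, hb4, hU1⟩
  intro u hu hu1
  have hz0 : (zpowers u : Subgroup G) ≠ ⊥ := by
    intro h
    exact hu1 (Subgroup.zpowers_eq_bot.mp h)
  have hzW : (zpowers u : Subgroup G) ≤ W := by
    rw [Subgroup.zpowers_le]; exact hu
  have hztop : (zpowers u : Subgroup G) ≠ ⊤ := not_isPGroup_top hG (hWs.to_le hzW)
  refine hi u hu hu1 _ (minSimple_normalizer_ne_top hG hz0 hztop) ?_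
  intro g hg
  rw [Subgroup.mem_normalizer_iff]
  intro x
  have hcomm : ∀ z ∈ (zpowers u : Subgroup G), g * z = z * g := by
    intro z hz
    obtain ⟨k, rfl⟩ := Subgroup.mem_zpowers_iff.mp hz
    have hgu : Commute g u := (Subgroup.mem_centralizer_iff.mp hg u rfl).symm
    exact (hgu.zpow_right k).eq
  constructor
  · intro hx
    have := hcomm x hx
    rw [this, mul_inv_cancel_right]
    exact hx
  · intro hx
    have := hcomm _ hx
    have h2 : x = g⁻¹ * (g * x * g⁻¹) * g := by group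
    rw [h2, mul_assoc, ← this, ← mul_assoc, inv_mul_cancel, one_mul]
    exact hx

/-- **B&G Lemma 9.5.** -/
theorem bg95 [Finite G] (hG : IsMinSimpleOddOrder G) (p : ℕ) [Fact p.Prime] (P : Sylow p G)
    (A : Subgroup G) (hA : IsSCN (P : Subgroup G) A) (hA3 : ¬ PRankLE p 2 ↥A) :
    InUniqueMaximal A := by
  have hp : p.Prime := Fact.out
  by_contra hAU
  have hAp : IsPGroup p A := P.isPGroup'.to_le hA.1
  have hAcen : A ≤ centralizer (A : Set G) := by
    intro a ha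
    have : a ∈ (P : Subgroup G) ⊓ centralizer (A : Set G) := by rw [hA.2.2]; exact ha
    exact this.2
  have hAc : IsMulCommutative A :=
    ⟨⟨fun a b => Subtype.ext (Subgroup.mem_centralizer_iff.mp (hAcen b.2) a a.2)⟩⟩
  have hAtop : A ≠ ⊤ := not_isPGroup_top hG hAp
  have hN1 : ∀ H : Subgroup G, IsCoatom H → PRankLE p 2 ↥(fittingOf H) := by
    intro H hH
    by_contra h
    exact hAU (Cfsg.Agent.S1401.result hG H hH p h A hAp hAc hA3)
  by_cases hbig : ∀ H : Subgroup G, IsCoatom H → A ≤ H → RankLE 2 (fittingSubgroup ↥H)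
  · exact hAU (case_small hG P hA hA3 hbig)
  · push Not at hbig
    obtain ⟨M, hM, hAM, hMr⟩ := hbig
    obtain ⟨s, hsF, W, hsp, hWs, hWM, hMW, hW2, hi, hii, hb3, hb4, hU1⟩ :=
      big_data hG P hA hA3 hN1 hM hAM hMr
    have hs : s.Prime := hsF.out
    have hii' : ∀ U : Subgroup G, U ≤ W → s ^ 2 ≤ Nat.card U →
        ∀ L : Subgroup G, IsCoatom L → U ≤ L → L = M := by
      intro U hUW hU2 L hL hUL
      obtain ⟨U₂, hU₂, hU₂u⟩ := hii U hUW hU2
      exact hU₂u.unique ⟨hL, hU₂.trans hUL⟩ ⟨hM, (hU₂.trans hUW).trans hWM⟩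
    -- the key lemma
    have key : ∀ H : Subgroup G, IsCoatom H → A ≤ H → H ≠ M →
        A ≤ centralizer ((W ⊓ H : Subgroup G) : Set G) := by
      intro H hH hAH hHM
      by_cases hHs : RankLE 2 (fittingSubgroup ↥H)
      · exact small_case hG hM hH hAM hAH hHM hHs hWs hMW hi hii' hb3 hU1
      · obtain ⟨t, htF, W', -, -, -, -, -, -, -, -, hb4', -⟩ :=
          big_data hG P hA hA3 hN1 hH hAH hHs
        have hD : ∀ R : Subgroup G, IsPGroup p R → A ≤ R →
            normalizer (R : Set G) ≤ H ⊓ M :=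
          fun R hR hAR => le_inf (hb4' R hR hAR) (hb4 R hR hAR)
        have hPD := transfer_T1 hG P hA.1 hAc hA.2.1 hD
        have hlt : Nat.card (W ⊓ H : Subgroup G) < s ^ 2 := by
          by_contra hge
          push Not at hge
          exact hHM (hii' _ inf_le_left hge H hH inf_le_right)
        have hDn : H ⊓ M ≤ normalizer ((W ⊓ H : Subgroup G) : Set G) := by
          intro g hg
          have h1 := hMW hg.2
          have h2 : g ∈ normalizer (H : Set G) := le_normalizer hg.1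
          rw [Subgroup.mem_normalizer_iff] at h1 h2 ⊢
          intro x
          rw [Subgroup.mem_inf, Subgroup.mem_inf, h1 x, h2 x]
        exact hA.1.trans (hPD.trans
          (comm_le_centralizer (hWs.to_le inf_le_left) hlt hDn))
    have hAW : A ≤ normalizer (W : Set G) := hAM.trans hMW
    by_cases hZA : A ≤ centralizer (W : Set G)
    · obtain ⟨U₂, hU₂, hU₂u⟩ := hii W le_rfl hW2
      have hKr : ¬ RankLE 1 ↥A := by
        intro h
        apply hA3
        intro B hBc hBp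
        exact (h p hp B hBc hBp).trans (Nat.pow_le_pow_right hp.pos (by norm_num))
      exact hAU (Cfsg.Agent.S1399.result hG U₂ A hU₂u
        (hZA.trans (Subgroup.centralizer_le hU₂)) hKr)
    · obtain ⟨E, hEA, hEc, hEp, hEcard⟩ := exists_elementary_of_not_pRankLE hA3
      have hEe : IsElementaryAbelian p E :=
        ⟨⟨⟨fun a b => Subtype.ext (hEc a a.2 b b.2)⟩⟩, hEp⟩
      have hE3 : p ^ 3 ≤ Nat.card E := pow_succ_le_card_of_lt (isPGroup_of_exponent hEp) hEcard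
      have hWcop : (Nat.card W).Coprime p := by
        obtain ⟨k, hk⟩ := IsPGroup.iff_card.mp hWs
        rw [hk]
        exact Nat.Coprime.pow_left k ((Nat.coprime_primes hs hp).mpr hsp)
      obtain ⟨B, hBE, hBe, hBnc, hBW⟩ := exists_B hAc hEA hEe hE3 hWcop hAW hZA
      have hcb : ∀ b ∈ B, b ≠ 1 → centralizer ({b} : Set G) ≤ M := by
        intro b hb hb1
        have hAb : A ≤ centralizer ({b} : Set G) :=
          hAcen.trans (Subgroup.centralizer_le (by
            intro x hx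
            rw [Set.mem_singleton_iff] at hx
            rw [hx]
            exact hEA (hBE hb)))
        have hcb : centralizer ({b} : Set G) ≠ ⊤ :=
          minSimple_centralizer_singleton_ne_top hG hb1
        obtain ⟨H, hH, hbH⟩ := (eq_top_or_exists_le_coatom _).resolve_left hcb
        by_contra hne
        have hHM : H ≠ M := fun h => hne (h ▸ hbH)
        have hk := key H hH (hAb.trans hbH) hHM
        apply hBW
        refine hk.trans (Subgroup.centralizer_le ?_)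
        intro x hx
        refine ⟨hx.1, hbH ?_⟩
        exact Subgroup.centralizer_le (by
          intro z hz
          rw [Set.mem_singleton_iff] at hz
          rw [hz]
          exact hb) hx.2
      have hBU := Cfsg.Agent.S1398.result hG M hM p B (hBE.trans (hEA.trans hAM)) hBe hBnc
        (Or.inl hcb)
      exact hAU (inUnique_mono hBU (hBE.trans hEA) hAtop)

end Cfsg.Agent.H38.BG95
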