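import Mathlib
import Cfsg.Agent.H58.BG10Defs3
import Cfsg.Agent.H58.BG127Defs
import Cfsg.Agent.H57.BG1218Defs

set_option autoImplicit false

/-!
# Bender–Glauberman Lemma 16.1 (S1421): the statement and its pieces as `Prop`s (helper38)

`M` maximal, `E` a complement of `M_σ` in `M`, hypothesis (H): every non-identity
`(τ₁(M) ∪ τ₃(M))`-element of `E` is regular on `M_σ` (`C_{M_σ}(e) = 1`).
An element `e` is *singular* if `e ≠ 1` and `C_{M_σ}(e) ≠ 1`.
Paper proof: `notes/helper38_S1421_design.md`.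
-/

namespace Cfsg.Agent.H38.BG161

open Cfsg Subgroup Cfsg.Agent.H58.BG10 Cfsg.Agent.H58.BG12

universe u

variable {G : Type u} [Group G]

/-- `e` is singular for `M`: `e ≠ 1` and `C_{M_σ}(e) ≠ 1`. -/
def Sing (M : Subgroup G) (e : G) : Prop :=
  e ≠ 1 ∧ sigmaCore M ⊓ centralizer ({e} : Set G) ≠ ⊥

/-- Hypothesis (H) of S1421. -/
def HypH (M E : Subgroup G) : Prop :=
  ∀ e ∈ E, e ≠ 1 → (∀ p : ℕ, p.Prime → p ∣ orderOf e → p ∈ tau1 M ∪ tau3 M) →
    sigmaCore M ⊓ centralizer ({e} : Set G) = ⊥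

/-- The working form of the conclusion: singular elements of `E` commute pairwise, and `E` has a
regular subgroup of full exponent. -/
def Concl (M E : Subgroup G) : Prop :=
  (∀ y ∈ E, ∀ y' ∈ E, Sing M y → Sing M y' → y * y' = y' * y) ∧
    ∃ E₀ : Subgroup G, E₀ ≤ E ∧ Monoid.exponent E₀ = Monoid.exponent E ∧
      ∀ e ∈ E₀, e ≠ 1 → sigmaCore M ⊓ centralizer ({e} : Set G) = ⊥

/-- S1421 (B&G Lemma 16.1). -/
def St1421 (G : Type u) [Group G] : Prop :=
  ∀ (M : Subgroup G), IsCoatom M → ∀ E : Subgroup G, IsComplIn E (sigmaCore M) M →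
    HypH M E →
    (∃ A₀ : Subgroup G, A₀ ≤ E ∧ E ≤ normalizer (A₀ : Set G) ∧ IsMulCommutative A₀ ∧
        ∀ x ∈ sigmaCore M, x ≠ 1 → E ⊓ centralizer ({x} : Set G) ≤ A₀) ∧
      ∃ E₀ : Subgroup G, E₀ ≤ E ∧ Monoid.exponent E₀ = Monoid.exponent E ∧
        ∀ e ∈ E₀, e ≠ 1 → sigmaCore M ⊓ centralizer ({e} : Set G) = ⊥

/-! ### General pieces -/

/-- (TAU) Every prime divisor of `#E` lies in `τ₁(M) ∪ τ₂(M) ∪ τ₃(M)`. -/
def StTauCases (G : Type u) [Group G] : Prop :=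
  ∀ (M : Subgroup G), IsCoatom M → ∀ E : Subgroup G, IsComplIn E (sigmaCore M) M →
    ∀ q : ℕ, q.Prime → q ∣ Nat.card E → q ∈ tau1 M ∪ tau2 M ∪ tau3 M

/-- (EXA) For `p ∈ τ₂(M)`, `E` contains an elementary abelian subgroup of order `p²`. -/
def StExA (G : Type u) [Group G] : Prop :=
  ∀ (M : Subgroup G), IsCoatom M → ∀ E : Subgroup G, IsComplIn E (sigmaCore M) M →
    ∀ (p : ℕ) [Fact p.Prime], p ∈ tau2 M →
      ∃ A : Subgroup G, A ≤ E ∧ IsElementaryAbelian p A ∧ Nat.card A = p ^ 2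

/-- (SINGT2) Under (H), every prime divisor of the order of a singular element of `E` lies in
`τ₂(M)`. -/
def StSingTau2 (G : Type u) [Group G] : Prop :=
  ∀ (M : Subgroup G), IsCoatom M → ∀ E : Subgroup G, IsComplIn E (sigmaCore M) M →
    HypH M E → ∀ y ∈ E, Sing M y → ∀ q : ℕ, q.Prime → q ∣ orderOf y → q ∈ tau2 M

/-- (CONCLFINAL) `Concl M E` gives the conclusion of S1421 (with `A₀` the subgroup generated by
the singular elements of `E`). -/
def StConclFinal (G : Type u) [Group G] : Prop :=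
  ∀ (M : Subgroup G), IsCoatom M → ∀ E : Subgroup G, IsComplIn E (sigmaCore M) M →
    Concl M E →
    (∃ A₀ : Subgroup G, A₀ ≤ E ∧ E ≤ normalizer (A₀ : Set G) ∧ IsMulCommutative A₀ ∧
        ∀ x ∈ sigmaCore M, x ≠ 1 → E ⊓ centralizer ({x} : Set G) ≤ A₀) ∧
      ∃ E₀ : Subgroup G, E₀ ≤ E ∧ Monoid.exponent E₀ = Monoid.exponent E ∧
        ∀ e ∈ E₀, e ≠ 1 → sigmaCore M ⊓ centralizer ({e} : Set G) = ⊥

/-! ### Case B: the Sylow `p`-subgroups of `G` are abelian for every `p ∈ τ₂(M)` -/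

/-- The setting of Case B at the prime `p ∈ τ₂(M)`: `S ≤ E` is an abelian Sylow `p`-subgroup of
`G`, normal in `E`, and `A ≤ S` is elementary abelian of order `p²`. -/
structure AbS (M E S A : Subgroup G) (p : ℕ) : Prop where
  coatom : IsCoatom M
  compl : IsComplIn E (sigmaCore M) M
  tau : p ∈ tau2 M
  le : S ≤ E
  norm : E ≤ normalizer (S : Set G)
  comm : ∀ a ∈ S, ∀ b ∈ S, a * b = b * a
  syl : ∃ P : Sylow p G, (P : Subgroup G) = S
  AS : A ≤ S
  elem : IsElementaryAbelian p A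
  card : Nat.card A = p ^ 2

/-- (ABS) Existence of the setting (from `StSylH` + S1418). -/
def StAbSExists (G : Type u) [Group G] : Prop :=
  ∀ (M : Subgroup G), IsCoatom M → ∀ E : Subgroup G, IsComplIn E (sigmaCore M) M →
    ∀ (p : ℕ) [Fact p.Prime], p ∈ tau2 M →
      (∃ P : Sylow p G, IsMulCommutative (P : Subgroup G)) →
      ∃ S A : Subgroup G, AbS M E S A p

/-- (BASIC) Basic facts in the setting `AbS`: `A = Ω₁(S)`; `C_G(A) ≤ E`; `E` and `N_G(S)`
normalize `A`; every subgroup of order `p` of `A` normalized by `N_G(S)` is regular; some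
subgroup of order `p` of `A` is regular. -/
def StBasic (G : Type u) [Group G] : Prop :=
  ∀ (M E S A : Subgroup G) (p : ℕ) [Fact p.Prime], AbS M E S A p →
    (∀ s ∈ S, s ^ p = 1 → s ∈ A) ∧
    centralizer (A : Set G) ≤ E ∧
    E ≤ normalizer (A : Set G) ∧
    normalizer (S : Set G) ≤ normalizer (A : Set G) ∧
    (∀ X : Subgroup G, X ≤ A → Nat.card X = p →
      normalizer (S : Set G) ≤ normalizer (X : Set G) →
      sigmaCore M ⊓ centralizer (X : Set G) = ⊥) ∧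
    ∃ A₁ : Subgroup G, A₁ ≤ A ∧ Nat.card A₁ = p ∧ sigmaCore M ⊓ centralizer (A₁ : Set G) = ⊥

/-- (WAB) `N_G(S)/C_G(S)` is abelian (S1450 applied to `N_G(S)`). -/
def StWAb (G : Type u) [Group G] : Prop :=
  ∀ (M E S A : Subgroup G) (p : ℕ) [Fact p.Prime], AbS M E S A p →
    ∀ w ∈ normalizer (S : Set G), ∀ w' ∈ normalizer (S : Set G),
      w * w' * w⁻¹ * w'⁻¹ ∈ centralizer (S : Set G)

/-- (HT2) For two primes `p ≠ q` of `τ₂(M)` in Case B, every `q`-element of `E` centralizes the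
Sylow `p`-subgroup `S` (both Sylow subgroups are normal in `E`). -/
def StHT2 (G : Type u) [Group G] : Prop :=
  ∀ (M E S A S' A' : Subgroup G) (p q : ℕ) [Fact p.Prime] [Fact q.Prime], AbS M E S A p →
    AbS M E S' A' q → q ≠ p → ∀ e ∈ E, (∃ k : ℕ, orderOf e = q ^ k) →
      e ∈ centralizer (S : Set G)

/-- (DEC) Fitting-type decomposition of an abelian `p`-group `S` under the automorphism
`ψ : s ↦ w s^u w⁻¹` (`w ∈ N_G(S)`, `w^n ∈ C_G(S)`, `(n, p) = 1`, `s^(u^n) = s` on `S`, so that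
`ψ^n = 1`): `S = C × D` with `C` the fixed points of `ψ`, and `C`, `D` are normalized by every
`g ∈ N_G(S)` commuting with `w` modulo `C_G(S)`. -/
def StDec (G : Type u) [Group G] : Prop :=
  ∀ (p : ℕ) [Fact p.Prime] (S : Subgroup G), IsPGroup p S →
    (∀ a ∈ S, ∀ b ∈ S, a * b = b * a) →
    ∀ (w : G) (n u : ℕ), w ∈ normalizer (S : Set G) → 0 < n → n.Coprime p →
      w ^ n ∈ centralizer (S : Set G) → (∀ s ∈ S, s ^ (u ^ n) = s) →
      ∃ C D : Subgroup G, C ≤ S ∧ D ≤ S ∧ C ⊓ D = ⊥ ∧ C ⊔ D = S ∧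
        (∀ s ∈ S, (s ∈ C ↔ w * s ^ u * w⁻¹ = s)) ∧
        ∀ g ∈ normalizer (S : Set G), g * w * g⁻¹ * w⁻¹ ∈ centralizer (S : Set G) →
          g ∈ normalizer (C : Set G) ∧ g ∈ normalizer (D : Set G)

/-- (CASER) If `N_G(S)` normalizes some subgroup of order `p` of `A` but some element of `N_G(S)`
moves some subgroup of order `p` of `A`, then `S` has an `N_G(S)`-invariant cyclic subgroup of
full exponent (its socle is `N_G(S)`-invariant, hence regular). -/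
def StCaseR (G : Type u) [Group G] : Prop :=
  ∀ (M E S A : Subgroup G) (p : ℕ) [Fact p.Prime], AbS M E S A p →
    (∃ Y : Subgroup G, Y ≤ A ∧ Nat.card Y = p ∧
      normalizer (S : Set G) ≤ normalizer (Y : Set G)) →
    (∃ w ∈ normalizer (S : Set G), ∃ X : Subgroup G, X ≤ A ∧ Nat.card X = p ∧
      w ∉ normalizer (X : Set G)) →
    ∃ C : Subgroup G, C ≤ S ∧ E ≤ normalizer (C : Set G) ∧
      Monoid.exponent C = Monoid.exponent S ∧
      ∀ c ∈ C, c ≠ 1 → sigmaCore M ⊓ centralizer ({c} : Set G) = ⊥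

/-- Hypothesis (I): `N_G(S)` normalizes no subgroup of order `p` of `A`. -/
def HypI (S A : Subgroup G) (p : ℕ) : Prop :=
  ∀ X : Subgroup G, X ≤ A → Nat.card X = p →
    ¬ normalizer (S : Set G) ≤ normalizer (X : Set G)

/-- (FIXSC) Under (I), an element of `N_G(S)` normalizing one subgroup of order `p` of `A` acts
on `A` as a power map. -/
def StFixScalar (G : Type u) [Group G] : Prop :=
  ∀ (M E S A : Subgroup G) (p : ℕ) [Fact p.Prime], AbS M E S A p → HypI S A p →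
    ∀ w ∈ normalizer (S : Set G), ∀ X : Subgroup G, X ≤ A → Nat.card X = p →
      w ∈ normalizer (X : Set G) → ∃ l : ℕ, ∀ a ∈ A, w * a * w⁻¹ = a ^ l

/-- (ORBIT) An element `k ∈ E` of prime order moving a singular subgroup `X` of order `p` of `A`
is singular (orbit product; uses `M_σ` nilpotent and `C_{M_σ}(A) = 1`). -/
def StOrbit (G : Type u) [Group G] : Prop :=
  ∀ (M E S A : Subgroup G) (p : ℕ) [Fact p.Prime], AbS M E S A p →
    ∀ (k : G) (q : ℕ), q.Prime → k ∈ E → orderOf k = q →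
    ∀ X : Subgroup G, X ≤ A → Nat.card X = p → k ∉ normalizer (X : Set G) →
      sigmaCore M ⊓ centralizer (X : Set G) ≠ ⊥ →
      sigmaCore M ⊓ centralizer ({k} : Set G) ≠ ⊥

/-- (LINECNT) A `q`-element normalizing `A` (elementary abelian of order `p²`) and normalizing no
subgroup of order `p` of `A` forces `q ∣ p + 1`. -/
def StLineCount (G : Type u) [Group G] : Prop :=
  ∀ (p : ℕ) [Fact p.Prime] (A : Subgroup G), IsElementaryAbelian p A → Nat.card A = p ^ 2 →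
    ∀ (e : G) (q : ℕ), q.Prime → e ∈ normalizer (A : Set G) → (∃ k : ℕ, orderOf e = q ^ k) →
      (∀ X : Subgroup G, X ≤ A → Nat.card X = p → e ∉ normalizer (X : Set G)) → q ∣ p + 1

/-- (POWORD) An element `e` with `e^q = 1` acting on `A` as a nontrivial power map forces
`q ∣ p - 1`. -/
def StPowOrder (G : Type u) [Group G] : Prop :=
  ∀ (p : ℕ) [Fact p.Prime] (A : Subgroup G), IsElementaryAbelian p A → Nat.card A = p ^ 2 →
    ∀ (e : G) (q l : ℕ), q.Prime → e ^ q = 1 → (∀ a ∈ A, e * a * e⁻¹ = a ^ l) →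
      e ∉ centralizer (A : Set G) → q ∣ p - 1

/-- (ALPHA1) A `q`-element (`q ≠ p`) of `E` not centralizing `A` has `q ∉ σ(M*)` for every
maximal `M* ⊇ N_G(S)`. -/
def StAlpha1 (G : Type u) [Group G] : Prop :=
  ∀ (M E S A : Subgroup G) (p : ℕ) [Fact p.Prime], AbS M E S A p →
    ∀ Mst : Subgroup G, IsCoatom Mst → normalizer (S : Set G) ≤ Mst →
    ∀ (e : G) (q : ℕ), q.Prime → q ≠ p → e ∈ E → (∃ k : ℕ, orderOf e = q ^ k) →
      e ∉ centralizer (A : Set G) → q ∉ sigma Mst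

/-- (ALPHA2C) `M*` of `q`-rank 1: a `q`-element `e` of `E` whose power of order `q` centralizes
`A` centralizes `A` (S1427 for `M*`). -/
def StAlpha2c (G : Type u) [Group G] : Prop :=
  ∀ (M E S A : Subgroup G) (p : ℕ) [Fact p.Prime], AbS M E S A p →
    ∀ Mst : Subgroup G, IsCoatom Mst → normalizer (S : Set G) ≤ Mst →
    ∀ (e : G) (q j : ℕ), q.Prime → q ≠ p → e ∈ E → orderOf e = q ^ (j + 1) →
      e ^ (q ^ j) ∈ centralizer (A : Set G) → q ∉ sigma Mst → PRankLE q 1 Mst →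
      e ∈ centralizer (A : Set G)

/-- (NORMARG) Norm argument: commuting `a, b ∈ N_G(A)` with `a^q, b^q ∈ C_G(A)`, `A` abelian,
`x ∈ A` with `x^q ≠ 1`: one of `b`, `a b^m` (`m < q`) fixes a non-identity element of `A`. -/
def StNormArg (G : Type u) [Group G] : Prop :=
  ∀ (A : Subgroup G) (a b : G) (q : ℕ), q.Prime → (∀ x ∈ A, ∀ y ∈ A, x * y = y * x) →
    a ∈ normalizer (A : Set G) → b ∈ normalizer (A : Set G) → a * b = b * a →
    a ^ q ∈ centralizer (A : Set G) → b ^ q ∈ centralizer (A : Set G) →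
    ∀ x ∈ A, x ^ q ≠ 1 →
      (∃ y ∈ A, y ≠ 1 ∧ b * y * b⁻¹ = y) ∨
        ∃ m < q, ∃ y ∈ A, y ≠ 1 ∧ (a * b ^ m) * y * (a * b ^ m)⁻¹ = y

/-- (ALPHA2N) `M*` of `q`-rank `≥ 2` (so `q ∈ τ₂(M*)`), under (I) and `M` of `q`-rank 1: a
`q`-element `e` of `E` whose power of order `q` centralizes `A` centralizes `A`. -/
def StAlpha2n (G : Type u) [Group G] : Prop :=
  ∀ (M E S A : Subgroup G) (p : ℕ) [Fact p.Prime], AbS M E S A p → HypI S A p →
    ∀ Mst : Subgroup G, IsCoatom Mst → normalizer (S : Set G) ≤ Mst →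
    ∀ (e : G) (q j : ℕ), q.Prime → q ≠ p → e ∈ E → orderOf e = q ^ (j + 1) →
      e ^ (q ^ j) ∈ centralizer (A : Set G) → q ∉ sigma Mst → ¬ PRankLE q 1 Mst →
      PRankLE q 1 M → e ∈ centralizer (A : Set G)

/-- (ALPHA) Under (I) and `M` of `q`-rank 1: a `q`-element `e` of `E` whose power of order `q`
centralizes `A` centralizes `A`. -/
def StAlpha (G : Type u) [Group G] : Prop :=
  ∀ (M E S A : Subgroup G) (p : ℕ) [Fact p.Prime], AbS M E S A p → HypI S A p →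
    ∀ (e : G) (q j : ℕ), q.Prime → q ≠ p → e ∈ E → orderOf e = q ^ (j + 1) →
      e ^ (q ^ j) ∈ centralizer (A : Set G) → PRankLE q 1 M → e ∈ centralizer (A : Set G)

/-- The `τ₂`-hypothesis used at the prime `p`: `q`-elements of `E` for the other primes
`q ∈ τ₂(M)` centralize `A`. -/
def HypT2 (M E A : Subgroup G) (p : ℕ) : Prop :=
  ∀ e ∈ E, ∀ q : ℕ, q.Prime → q ≠ p → q ∈ tau2 M → (∃ k : ℕ, orderOf e = q ^ k) →
    e ∈ centralizer (A : Set G)

/-- (SCALAR) Under (H), (I), `HypT2` and the existence of a singular subgroup of order `p` of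
`A`: every element of `E` normalizes every subgroup of order `p` of `A`. -/
def StScalar (G : Type u) [Group G] : Prop :=
  ∀ (M E S A : Subgroup G) (p : ℕ) [Fact p.Prime], AbS M E S A p → HypH M E → HypI S A p →
    HypT2 M E A p →
    (∃ X : Subgroup G, X ≤ A ∧ Nat.card X = p ∧ sigmaCore M ⊓ centralizer (X : Set G) ≠ ⊥) →
    ∀ e ∈ E, ∀ X : Subgroup G, X ≤ A → Nat.card X = p → e ∈ normalizer (X : Set G)

/-- (CASEI) Under (I), if every element of `E` normalizes every subgroup of order `p` of `A`,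
then `S` has an `E`-invariant cyclic subgroup of full exponent with regular socle. -/
def StCaseI (G : Type u) [Group G] : Prop :=
  ∀ (M E S A : Subgroup G) (p : ℕ) [Fact p.Prime], AbS M E S A p → HypI S A p →
    (∀ e ∈ E, ∀ X : Subgroup G, X ≤ A → Nat.card X = p → e ∈ normalizer (X : Set G)) →
    ∃ C : Subgroup G, C ≤ S ∧ E ≤ normalizer (C : Set G) ∧
      Monoid.exponent C = Monoid.exponent S ∧
      ∀ c ∈ C, c ≠ 1 → sigmaCore M ⊓ centralizer ({c} : Set G) = ⊥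

/-- (PERPRIME) The per-prime statement of Case B. -/
def StPerPrime (G : Type u) [Group G] : Prop :=
  ∀ (M E S A : Subgroup G) (p : ℕ) [Fact p.Prime], AbS M E S A p → HypH M E →
    HypT2 M E A p →
    ∃ C : Subgroup G, C ≤ S ∧ E ≤ normalizer (C : Set G) ∧
      Monoid.exponent C = Monoid.exponent S ∧
      ∀ c ∈ C, c ≠ 1 → sigmaCore M ⊓ centralizer ({c} : Set G) = ⊥

/-- (ASMB) Abstract assembly of Case B for a set `T` of primes. -/
def StAsmB (G : Type u) [Group G] : Prop :=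
  ∀ (M E : Subgroup G) (T : Set ℕ),
    (∀ e ∈ E, ∀ q : ℕ, q.Prime → orderOf e = q → q ∉ T →
      sigmaCore M ⊓ centralizer ({e} : Set G) = ⊥) →
    (∀ y ∈ E, Sing M y → ∀ q : ℕ, q.Prime → q ∣ orderOf y → q ∈ T) →
    (∀ (p : ℕ) [Fact p.Prime], p ∈ T → ∃ S C : Subgroup G, S ≤ E ∧
        E ≤ normalizer (S : Set G) ∧ (∀ a ∈ S, ∀ b ∈ S, a * b = b * a) ∧
        (∃ P : Sylow p G, (P : Subgroup G) = S) ∧ C ≤ S ∧ E ≤ normalizer (C : Set G) ∧
        Monoid.exponent C = Monoid.exponent S ∧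
        ∀ c ∈ C, c ≠ 1 → sigmaCore M ⊓ centralizer ({c} : Set G) = ⊥) →
    Concl M E

/-- Case B. -/
def StCaseB (G : Type u) [Group G] : Prop :=
  ∀ (M : Subgroup G), IsCoatom M → ∀ E : Subgroup G, IsComplIn E (sigmaCore M) M →
    HypH M E →
    (∀ (p : ℕ) [Fact p.Prime], p ∈ tau2 M →
      ∃ P : Sylow p G, IsMulCommutative (P : Subgroup G)) →
    Concl M E

/-! ### Case A: some `p ∈ τ₂(M)` has nonabelian Sylow `p`-subgroups in `G` (setting `Nab`) -/

/-- (SINGA) In the setting `Nab`: singular `p`-elements of `E` lie in `A₀ = C_A(M_σ)`, and no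
`y ∈ E` has `y^p ∈ A₀ ∖ 1`. -/
def StSingA (G : Type u) [Group G] : Prop :=
  ∀ (M E A : Subgroup G) (p : ℕ) [Fact p.Prime], Nab M E A p →
    (∀ y ∈ E, (∃ k : ℕ, orderOf y = p ^ k) → Sing M y →
      y ∈ A ⊓ centralizer (sigmaCore M : Set G)) ∧
    ∀ y ∈ E, y ^ p ∈ A ⊓ centralizer (sigmaCore M : Set G) → y ^ p = 1

/-- (NABSTRUCT) `E = L · P · V` with `L ⊴ E` a `p'`-group, `P ≥ A` an abelian `p`-subgroup and
`V ≤ N_E(P)` a `p'`-group. -/
def StNabStruct (G : Type u) [Group G] : Prop :=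
  ∀ (M E A : Subgroup G) (p : ℕ) [Fact p.Prime], Nab M E A p →
    ∃ L P V : Subgroup G, L ≤ E ∧ E ≤ normalizer (L : Set G) ∧ ¬ p ∣ Nat.card L ∧
      A ≤ P ∧ P ≤ E ∧ IsPGroup p P ∧ (∀ a ∈ P, ∀ b ∈ P, a * b = b * a) ∧
      V ≤ E ∧ V ≤ normalizer (P : Set G) ∧ ¬ p ∣ Nat.card V ∧
      ∀ e ∈ E, ∃ l ∈ L, ∃ x ∈ P, ∃ v ∈ V, e = l * x * v

/-- (INVCOMPL) Maschke-type: a `p'`-group `V` acting on an abelian `p`-group `P`, `A₀ ≤ P` a
`V`-invariant subgroup of order `p` meeting `P^p` trivially: `A₀` has a `V`-invariant complement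
in `P`. -/
def StInvCompl (G : Type u) [Group G] : Prop :=
  ∀ (p : ℕ) [Fact p.Prime] (P V A₀ : Subgroup G), IsPGroup p P →
    (∀ a ∈ P, ∀ b ∈ P, a * b = b * a) → V ≤ normalizer (P : Set G) → ¬ p ∣ Nat.card V →
    A₀ ≤ P → Nat.card A₀ = p → V ≤ normalizer (A₀ : Set G) →
    (∀ y ∈ P, y ^ p ∈ A₀ → y ^ p = 1) →
    ∃ D : Subgroup G, D ≤ P ∧ V ≤ normalizer (D : Set G) ∧ D ⊓ A₀ = ⊥ ∧ D ⊔ A₀ = P

/-- (ASMA) Abstract assembly of Case A: `E₀ = L · D · V` avoids `A₀` and has full exponent. -/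
def StAsmA (G : Type u) [Group G] : Prop :=
  ∀ (p : ℕ) [Fact p.Prime] (E L P V D A₀ : Subgroup G),
    L ≤ E → E ≤ normalizer (L : Set G) → ¬ p ∣ Nat.card L →
    P ≤ E → IsPGroup p P → (∀ a ∈ P, ∀ b ∈ P, a * b = b * a) →
    V ≤ E → V ≤ normalizer (P : Set G) → ¬ p ∣ Nat.card V →
    (∀ e ∈ E, ∃ l ∈ L, ∃ x ∈ P, ∃ v ∈ V, e = l * x * v) →
    E ≤ normalizer (A₀ : Set G) → Nat.card A₀ = p → A₀ ≤ P → p ^ 2 ∣ Nat.card P →
    D ≤ P → V ≤ normalizer (D : Set G) → D ⊓ A₀ = ⊥ → D ⊔ A₀ = P →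
    ∃ E₀ : Subgroup G, E₀ ≤ E ∧ E₀ ⊓ A₀ = ⊥ ∧ Monoid.exponent E₀ = Monoid.exponent E

/-- Case A. -/
def StCaseA (G : Type u) [Group G] : Prop :=
  ∀ (M E A : Subgroup G) (p : ℕ) [Fact p.Prime], Nab M E A p → HypH M E → Concl M E

end Cfsg.Agent.H38.BG161
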