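import Cfsg.Agent.H38.Fg6

/-!
# S3793-P5: the commutant bound (for helper3's Shult–Gross project)
-/

set_option autoImplicit false
set_option linter.style.haveILetI false
set_option linter.unusedVariables false
set_option linter.unusedSectionVars false

namespace Cfsg.Agent.H38

open Module

theorem fg_comm_bound {K : Type*} [Field K] [IsAlgClosed K] {Q : Type*} [Group Q] [Finite Q]
    {Y : Type*} [AddCommGroup Y] [Module K Y] [FiniteDimensional K Y] [Nontrivial Y]
    (ρ₁ : Q →* Module.End K Y)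
    (hirr : ∀ U : Submodule K Y, (∀ h : Q, ∀ y ∈ U, ρ₁ h y ∈ U) → U = ⊥ ∨ U = ⊤)
    (a : MulAut Q) (P : ℕ) (hP : 0 < P) (hPK : (P : K) ≠ 0)
    (g g' : Module.End K Y) (hgg' : g * g' = 1) (hg'g : g' * g = 1) (hgP : g ^ P = 1)
    (hint : ∀ h, g * ρ₁ h = ρ₁ (a h) * g)
    (R : Subgroup Q) (hRs : ∀ r ∈ R, ∃ c : K, ρ₁ r = c • 1)
    (T : Finset Q) (hT : ∀ h : Q, h ∉ R → ∃ t ∈ T, ∃ i, i < P ∧ ((a ^ i) t)⁻¹ * h ∈ R)
    (C : Submodule K (Module.End K Y)) (hC : ∀ B ∈ C, B * g = g * B) :
    Module.finrank K C ≤ T.card + 1 := by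
  classical
  have hcomm : Commute g g' := hgg'.trans hg'g.symm
  have hpow : ∀ i : ℕ, g ^ i * g' ^ i = 1 := by
    intro i
    rw [← hcomm.mul_pow, hgg', one_pow]
  have hg'P : g' ^ P = 1 := by
    have := hpow P
    rwa [hgP, one_mul] at this
  -- the averaging operator
  obtain ⟨Av, hAv⟩ : ∃ Av : Module.End K Y →ₗ[K] Module.End K Y,
      ∀ X, Av X = ∑ i ∈ Finset.range P, g ^ i * (X * g' ^ i) := by
    refine ⟨∑ i ∈ Finset.range P,
      (LinearMap.mulLeft K (g ^ i)).comp (LinearMap.mulRight K (g' ^ i)), ?_⟩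
    intro X
    rw [LinearMap.sum_apply]
    rfl
  have hshift : ∀ X, Av (g * X * g') = Av X := by
    intro X
    rw [hAv, hAv]
    have h1 : ∀ i, g ^ i * (g * X * g' * g' ^ i) = g ^ (i + 1) * (X * g' ^ (i + 1)) := by
      intro i
      rw [pow_succ g i, pow_succ' g' i]
      simp only [mul_assoc]
    rw [Finset.sum_congr rfl (fun i _ => h1 i)]
    have h2 := Finset.sum_range_succ (fun i => g ^ i * (X * g' ^ i)) P
    have h3 := Finset.sum_range_succ' (fun i => g ^ i * (X * g' ^ i)) P
    rw [h3] at h2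
    simp only [pow_zero, one_mul, mul_one, hgP, hg'P] at h2
    exact add_right_cancel h2
  have hshift' : ∀ (i : ℕ) X, Av (g ^ i * X * g' ^ i) = Av X := by
    intro i
    induction i with
    | zero => intro X; simp
    | succ i ih =>
      intro X
      have : g ^ (i + 1) * X * g' ^ (i + 1) = g * (g ^ i * X * g' ^ i) * g' := by
        rw [pow_succ' g i, pow_succ g' i]
        simp only [mul_assoc]
      rw [this, hshift, ih]
  have hfix : ∀ B : Module.End K Y, B * g = g * B → Av B = (P : K) • B := by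
    intro B hB
    rw [hAv]
    have hBg : Commute B g := hB
    have h1 : ∀ i ∈ Finset.range P, g ^ i * (B * g' ^ i) = B := by
      intro i _
      rw [← mul_assoc, ← (hBg.pow_right i).eq, mul_assoc, hpow, mul_one]
    rw [Finset.sum_congr rfl h1, Finset.sum_const, Finset.card_range, Nat.cast_smul_eq_nsmul]
  have hconj : ∀ (i : ℕ) (t : Q), ρ₁ ((a ^ i) t) = g ^ i * ρ₁ t * g' ^ i := by
    intro i t
    rw [fg_intertwine_mulAut_pow ρ₁ g a hint i t, mul_assoc, hpow, mul_one]
  -- the span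
  obtain ⟨F, hF⟩ : ∃ F : Finset (Module.End K Y),
      F = insert 1 (T.image (fun t => Av (ρ₁ t))) := ⟨_, rfl⟩
  obtain ⟨S, hS⟩ : ∃ S : Submodule K (Module.End K Y),
      S = Submodule.span K (F : Set (Module.End K Y)) := ⟨_, rfl⟩
  have h1S : (1 : Module.End K Y) ∈ S := by
    rw [hS]; apply Submodule.subset_span
    rw [hF]; simp
  have htS : ∀ t ∈ T, Av (ρ₁ t) ∈ S := by
    intro t ht
    rw [hS]; apply Submodule.subset_span
    rw [hF]
    simp only [Finset.coe_insert, Finset.coe_image, Set.mem_insert_iff, Set.mem_image,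
      Finset.mem_coe]
    exact Or.inr ⟨t, ht, rfl⟩
  have hAv1 : Av 1 = (P : K) • 1 := hfix 1 (by rw [one_mul, mul_one])
  have hρS : ∀ h : Q, Av (ρ₁ h) ∈ S := by
    intro h
    by_cases hh : h ∈ R
    · obtain ⟨c, hc⟩ := hRs h hh
      rw [hc, map_smul, hAv1]
      exact S.smul_mem _ (S.smul_mem _ h1S)
    · obtain ⟨t, ht, i, hi, hr⟩ := hT h hh
      obtain ⟨c, hc⟩ := hRs _ hr
      have e : ρ₁ h = c • (g ^ i * ρ₁ t * g' ^ i) := by
        have : h = (a ^ i) t * (((a ^ i) t)⁻¹ * h) := by group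
        rw [← hconj, this, map_mul, hc, mul_smul_comm, mul_one]
      rw [e, map_smul, hshift']
      exact S.smul_mem _ (htS t ht)
  have hall : ∀ B : Module.End K Y, Av B ∈ S := by
    intro B
    have hB : B ∈ Submodule.span K (Set.range ρ₁) := by
      rw [Cfsg.Agent.H66.rho_span_top ρ₁ hirr]; trivial
    have hle : Submodule.span K (Set.range ρ₁) ≤ S.comap Av := by
      apply Submodule.span_le.mpr
      rintro _ ⟨h, rfl⟩
      exact hρS h
    exact hle hB
  have hCS : C ≤ S := by
    intro B hB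
    have h1 := hall B
    rw [hfix B (hC B hB)] at h1
    have h2 := S.smul_mem (P : K)⁻¹ h1
    rwa [smul_smul, inv_mul_cancel₀ hPK, one_smul] at h2
  have hfin : Module.finrank K S ≤ T.card + 1 := by
    rw [hS]
    refine (finrank_span_finset_le_card F).trans ?_
    rw [hF]
    exact (Finset.card_insert_le _ _).trans (Nat.add_le_add_right Finset.card_image_le 1)
  exact (Submodule.finrank_mono hCS).trans hfin

end Cfsg.Agent.H38
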