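import Cfsg.Agent.H66.HHE

/-!
# S3793-P6: the intertwiner (for helper3's Shult–Gross project)
-/

set_option autoImplicit false
set_option linter.style.haveILetI false
set_option linter.unusedVariables false
set_option linter.unusedSectionVars false

namespace Cfsg.Agent.H38

open Module

theorem fg_intertwine_mulAut_pow {K : Type*} [Field K] {Q : Type*} [Group Q]
    {Y : Type*} [AddCommGroup Y] [Module K Y] (ρ₁ : Q →* Module.End K Y)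
    (g : Module.End K Y) (a : MulAut Q)
    (h : ∀ b, g * ρ₁ b = ρ₁ (a b) * g) :
    ∀ (k : ℕ) (b : Q), g ^ k * ρ₁ b = ρ₁ ((a ^ k) b) * g ^ k
  | 0, b => by simp
  | k + 1, b => by
    rw [pow_succ, mul_assoc, h b, ← mul_assoc, fg_intertwine_mulAut_pow ρ₁ g a h k (a b),
      mul_assoc, pow_succ a k, MulAut.mul_apply]

theorem fg_intertwiner {K : Type*} [Field K] [IsAlgClosed K] {Q : Type*} [Group Q] [Finite Q]
    {Y : Type*} [AddCommGroup Y] [Module K Y] [FiniteDimensional K Y] [Nontrivial Y]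
    (ρ₁ : Q →* Module.End K Y)
    (hirr : ∀ U : Submodule K Y, (∀ h : Q, ∀ y ∈ U, ρ₁ h y ∈ U) → U = ⊥ ∨ U = ⊤)
    (R : Subgroup Q)
    (hcomm : ∀ x y : Q, x * y * x⁻¹ * y⁻¹ ∈ R)
    (hRs : ∀ r ∈ R, ∃ c : K, ρ₁ r = c • 1)
    (hnd : ∀ x : Q, (∀ y : Q, ρ₁ (y * x * y⁻¹ * x⁻¹) = 1) → x ∈ R)
    (hcast : ∀ k : ℕ, k ∣ Nat.card Q → (k : K) ≠ 0)
    (a : MulAut Q) (P : ℕ) (hP : 0 < P) (haP : a ^ P = 1)
    (hRa : ∀ r ∈ R, ρ₁ (a r) = ρ₁ r)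
    (hfree : ∀ h : Q, h ∉ R → a h * h⁻¹ ∉ R) :
    ∃ g g' : Module.End K Y, g * g' = 1 ∧ g' * g = 1 ∧ g ^ P = 1 ∧
      ∀ h, g * ρ₁ h = ρ₁ (a h) * g := by
  classical
  haveI : Fintype Q := Fintype.ofFinite Q
  obtain ⟨d, hd⟩ : ∃ d, d = Module.finrank K Y := ⟨_, rfl⟩
  have hd2 : d ^ 2 = R.index := by
    rw [hd]; exact Cfsg.Agent.H66.finrank_sq_eq_index ρ₁ R hirr hcomm hRs hnd
  have hidx : R.index ∣ Nat.card Q := Subgroup.index_dvd_card R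
  have hcardR : Nat.card R ∣ Nat.card Q := Subgroup.card_subgroup_dvd_card R
  have hdK : (d : K) ≠ 0 :=
    hcast d ((dvd_pow_self d two_ne_zero).trans (hd2 ▸ hidx))
  have hRK : (Nat.card R : K) ≠ 0 := hcast _ hcardR
  -- the intertwiner
  obtain ⟨g₀, hg₀⟩ : ∃ g₀ : Module.End K Y, g₀ = ∑ b : Q, ρ₁ (a b) * ρ₁ b⁻¹ := ⟨_, rfl⟩
  have hint₀ : ∀ b, g₀ * ρ₁ b = ρ₁ (a b) * g₀ := by
    intro b
    rw [hg₀, Finset.sum_mul, Finset.mul_sum]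
    rw [← Equiv.sum_comp (Equiv.mulLeft b⁻¹) (fun c => ρ₁ (a b) * (ρ₁ (a c) * ρ₁ c⁻¹))]
    apply Finset.sum_congr rfl
    intro c _
    show _ = ρ₁ (a b) * (ρ₁ (a (b⁻¹ * c)) * ρ₁ (b⁻¹ * c)⁻¹)
    have e : a b * (a (b⁻¹ * c) * (b⁻¹ * c)⁻¹) = a c * c⁻¹ * b := by
      rw [map_mul a, map_inv a]; group
    rw [← map_mul ρ₁, ← map_mul ρ₁, ← map_mul ρ₁, ← map_mul ρ₁, e]
  have htr : LinearMap.trace K Y g₀ = (Nat.card R : K) * d := by
    rw [hg₀, map_sum]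
    have hterm : ∀ b : Q, LinearMap.trace K Y (ρ₁ (a b) * ρ₁ b⁻¹) =
        if b ∈ R then (d : K) else 0 := by
      intro b
      split_ifs with hb
      · rw [hRa b hb, Cfsg.Agent.H66.rho_mul_inv, LinearMap.trace_one, hd]
      · rw [← map_mul ρ₁]
        exact Cfsg.Agent.H66.trace_rho_eq_zero ρ₁ R hcomm hRs hnd _ (hfree b hb)
    rw [Finset.sum_congr rfl (fun b _ => hterm b), Finset.sum_ite, Finset.sum_const_zero,
      add_zero, Finset.sum_const, nsmul_eq_mul]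
    congr 2
    rw [Nat.card_eq_fintype_card, Fintype.card_subtype]
  have hcommute : ∀ b, g₀ ^ P * ρ₁ b = ρ₁ b * g₀ ^ P := by
    intro b
    have := fg_intertwine_mulAut_pow ρ₁ g₀ a hint₀ P b
    rw [haP] at this
    exact this
  obtain ⟨μ, hμ⟩ := Cfsg.Agent.H66.schur_scalar ρ₁ hirr _ hcommute
  have hμ0 : μ ≠ 0 := by
    intro h
    rw [h, zero_smul] at hμ
    have hnil : IsNilpotent g₀ := ⟨P, hμ⟩
    have h1 := LinearMap.isNilpotent_trace_of_isNilpotent hnil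
    rw [htr] at h1
    exact mul_ne_zero hRK hdK (IsNilpotent.eq_zero h1)
  obtain ⟨κ, hκ⟩ := IsAlgClosed.exists_pow_nat_eq μ⁻¹ hP
  obtain ⟨g, hgdef⟩ : ∃ g : Module.End K Y, g = κ • g₀ := ⟨_, rfl⟩
  have hg1 : g ^ P = 1 := by
    rw [hgdef, smul_pow, hκ, hμ, smul_smul, inv_mul_cancel₀ hμ0, one_smul]
  have hint : ∀ b, g * ρ₁ b = ρ₁ (a b) * g := by
    intro b
    rw [hgdef, smul_mul_assoc, hint₀, mul_smul_comm]
  refine ⟨g, g ^ (P - 1), ?_, ?_, hg1, hint⟩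
  · rw [← pow_succ', Nat.sub_add_cancel hP, hg1]
  · rw [← pow_succ, Nat.sub_add_cancel hP, hg1]

end Cfsg.Agent.H38
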