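import Mathlib
import Cfsg.Agent.H38.BG161Defs
import Cfsg.Agent.H57.BG126
import Cfsg.Agent.H58.Sig2

set_option autoImplicit false

/-!
# S1421 piece ABS (helper38): existence of the setting `AbS` of Case B
-/

namespace Cfsg.Agent.H38.BG161

open Cfsg Subgroup Cfsg.Agent.H58.BG10 Cfsg.Agent.H58.BG12 Cfsg.Agent.H57.BG1218

universe u

variable {G : Type u} [Group G]

/-- (ABS). -/
theorem abSExists [Finite G] (h18 : St1418 G) (hExA : StExA G) (hSylH : StSylH G) :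
    StAbSExists G := by
  rintro M hM E hE p _ hpτ ⟨P0, hP0⟩
  obtain ⟨A, hAE, hAel, hAc⟩ := hExA M hM E hE p hpτ
  obtain ⟨-, ⟨hCA, hMN, -⟩, -⟩ := h18 M hM E hE p hpτ A ⟨hAE, hAel, hAc⟩
  have hAp : IsPGroup p A := Cfsg.Agent.H57.BG12.isPGroup_of_elementary hAel
  obtain ⟨P, hAP, hPM, hnorm⟩ := hSylH M hM p hpτ ⟨P0, hP0⟩ A (hAE.trans hE.1) hAp
  have hPc : ∀ a ∈ (P : Subgroup G), ∀ b ∈ (P : Subgroup G), a * b = b * a := by
    obtain ⟨g, rfl⟩ := MulAction.exists_smul_eq G P0 P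
    intro a ha b hb
    rw [Sylow.coe_subgroup_smul, Subgroup.mem_pointwise_smul_iff_inv_smul_mem] at ha hb
    have ha' : g⁻¹ * a * g ∈ (P0 : Subgroup G) := by simpa [MulAut.smul_def] using ha
    have hb' : g⁻¹ * b * g ∈ (P0 : Subgroup G) := by simpa [MulAut.smul_def] using hb
    have h := congrArg Subtype.val
      (hP0.is_comm.comm (⟨_, ha'⟩ : (P0 : Subgroup G)) ⟨_, hb'⟩)
    have h' : g⁻¹ * a * g * (g⁻¹ * b * g) = g⁻¹ * b * g * (g⁻¹ * a * g) := h
    calc a * b = g * (g⁻¹ * a * g * (g⁻¹ * b * g)) * g⁻¹ := by group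
      _ = g * (g⁻¹ * b * g * (g⁻¹ * a * g)) * g⁻¹ := by rw [h']
      _ = b * a := by group
  have hPE : (P : Subgroup G) ≤ E := by
    intro x hx
    have hxc : x ∈ centralizer (A : Set G) := by
      rw [mem_centralizer_iff]
      intro a ha
      exact hPc a (hAP ha) x hx
    have h := hCA hxc
    rw [hMN] at h
    exact h
  have hσP : (P : Subgroup G) ≤ normalizer (sigmaCore M : Set G) :=
    hPM.trans (Cfsg.Agent.H57.BG12.le_normalizer_sigmaCore M)
  have hconj : ∀ e ∈ E, ∀ x ∈ (P : Subgroup G), e * x * e⁻¹ ∈ (P : Subgroup G) := by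
    intro e he x hx
    have hen := hnorm (hE.1 he)
    have hu : e * x * e⁻¹ ∈ sigmaCore M ⊔ (P : Subgroup G) :=
      (mem_normalizer_iff.mp hen x).1 (mem_sup_right hx)
    obtain ⟨m, hm, y, hy, huy⟩ := Cfsg.Agent.H58.mem_sup_of_le_normalizer hσP hu
    have hmE : m ∈ E := by
      have : m = e * x * e⁻¹ * y⁻¹ := by rw [huy]; group
      rw [this]
      exact E.mul_mem (E.mul_mem (E.mul_mem he (hPE hx)) (E.inv_mem he)) (E.inv_mem (hPE hy))
    have hm1 : m = 1 := by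
      have : m ∈ E ⊓ sigmaCore M := ⟨hmE, hm⟩
      rw [hE.2.2.1] at this
      exact (mem_bot).mp this
    rw [huy, hm1, one_mul]
    exact hy
  have hEP : E ≤ normalizer ((P : Subgroup G) : Set G) := by
    intro e he
    rw [mem_normalizer_iff]
    intro x
    refine ⟨hconj e he x, fun h => ?_⟩
    have := hconj e⁻¹ (E.inv_mem he) _ h
    simpa [mul_assoc] using this
  exact ⟨P, A, hM, hE, hpτ, hPE, hEP, hPc, ⟨P, rfl⟩, hAP, hAel, hAc⟩

end Cfsg.Agent.H38.BG161
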