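import Mathlib
import Cfsg.Agent.H38.BG161Defs
import Cfsg.Agent.H57.BG126

set_option autoImplicit false

/-!
# Bender–Glauberman Lemma 16.1 (S1421): assembly of the pieces (helper38)
-/

namespace Cfsg.Agent.H38.BG161

open Cfsg Subgroup Cfsg.Agent.H58.BG10 Cfsg.Agent.H58.BG12

universe u

variable {G : Type u} [Group G]

/-- `C_G(c) ≤ C_G(⟨c^m⟩)`. -/
theorem cent_singleton_le_cent_zpowers_pow (c : G) (m : ℕ) :
    centralizer ({c} : Set G) ≤ centralizer ((zpowers (c ^ m) : Subgroup G) : Set G) := by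
  intro g hg
  rw [mem_centralizer_iff] at hg ⊢
  have hgc : Commute c g := hg c rfl
  intro x hx
  obtain ⟨k, rfl⟩ := mem_zpowers_iff.mp hx
  exact ((hgc.pow_left m).zpow_left k).eq

/-- (ALPHA) from (ALPHA1), (ALPHA2C), (ALPHA2N). -/
theorem alpha_of [Finite G] (hG : IsMinSimpleOddOrder G) (h1 : StAlpha1 G) (h2c : StAlpha2c G)
    (h2n : StAlpha2n G) : StAlpha G := by
  intro M E S A p _ hAb hIy e q j hq hqp heE hord hpow hrk
  have hp : p.Prime := Fact.out
  have hS1 : S ≠ ⊥ := by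
    intro h
    have hA : A = ⊥ := le_bot_iff.mp (h ▸ hAb.AS)
    have hc := hAb.card
    rw [hA, Subgroup.card_bot] at hc
    have : 1 < p ^ 2 := Nat.one_lt_pow (by norm_num) hp.one_lt
    omega
  have hS2 : S ≠ ⊤ := by
    intro h
    have hM : M = ⊤ := top_le_iff.mp (h ▸ hAb.le.trans hAb.compl.1)
    exact hAb.coatom.1 hM
  have hNS : normalizer (S : Set G) ≠ ⊤ :=
    Cfsg.Agent.H51.BG10.normalizer_ne_top_of_ne hG hS1 hS2
  obtain ⟨Mst, hMst, hle⟩ := Cfsg.Agent.H57.BG12.exists_coatom_ge hNS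
  by_contra hcon
  have hqs : q ∉ sigma Mst :=
    h1 M E S A p hAb Mst hMst hle e q hq hqp heE ⟨j + 1, hord⟩ hcon
  by_cases hr : PRankLE q 1 Mst
  · exact hcon (h2c M E S A p hAb Mst hMst hle e q j hq hqp heE hord hpow hqs hr)
  · exact hcon (h2n M E S A p hAb hIy Mst hMst hle e q j hq hqp heE hord hpow hqs hr hrk)

/-- (PERPRIME) from (BASIC), (CASER), (SCALAR), (CASEI). -/
theorem perPrime_of [Finite G] (hBasic : StBasic G) (hR : StCaseR G) (hSc : StScalar G)
    (hI : StCaseI G) : StPerPrime G := by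
  intro M E S A p _ hAb hH hT2
  have hp : p.Prime := Fact.out
  obtain ⟨hom, -, -, -, hWreg, -⟩ := hBasic M E S A p hAb
  by_cases hall : ∀ X : Subgroup G, X ≤ A → Nat.card X = p →
      sigmaCore M ⊓ centralizer (X : Set G) = ⊥
  · refine ⟨S, le_rfl, hAb.norm, rfl, ?_⟩
    intro c hc hne
    obtain ⟨P, hP⟩ := hAb.syl
    have hSp : IsPGroup p S := hP ▸ P.isPGroup'
    obtain ⟨k, hk⟩ := (IsPGroup.iff_orderOf.mp hSp) ⟨c, hc⟩
    rw [Subgroup.orderOf_mk] at hk
    have hk0 : k ≠ 0 := by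
      rintro rfl
      rw [pow_zero, orderOf_eq_one_iff] at hk
      exact hne hk
    obtain ⟨k', rfl⟩ := Nat.exists_eq_succ_of_ne_zero hk0
    set c' := c ^ (p ^ k') with hc'
    have hc'ord : orderOf c' = p := by
      have hdvd : p ^ k' ∣ orderOf c := hk ▸ pow_dvd_pow p (Nat.le_succ k')
      have h1 : orderOf c' = orderOf c / p ^ k' := orderOf_pow_of_dvd (pow_pos hp.pos k').ne' hdvd
      rw [h1, hk, pow_succ, Nat.mul_div_cancel_left _ (pow_pos hp.pos k')]
    have hc'A : c' ∈ A := by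
      apply hom c' (S.pow_mem hc _)
      rw [← hc'ord]; exact pow_orderOf_eq_one c'
    have hXA : zpowers c' ≤ A := (zpowers_le).mpr hc'A
    have hXc : Nat.card (zpowers c') = p := by rw [Nat.card_zpowers, hc'ord]
    have h0 := hall (zpowers c') hXA hXc
    exact le_bot_iff.mp (h0 ▸ inf_le_inf_left _ (cent_singleton_le_cent_zpowers_pow c (p ^ k')))
  · push_neg at hall
    obtain ⟨X₀, hX₀A, hX₀c, hX₀s⟩ := hall
    by_cases hWl : ∃ Y : Subgroup G, Y ≤ A ∧ Nat.card Y = p ∧
        normalizer (S : Set G) ≤ normalizer (Y : Set G)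
    · apply hR M E S A p hAb hWl
      by_contra hcon
      push Not at hcon
      apply hX₀s
      apply hWreg X₀ hX₀A hX₀c
      intro w hw
      exact hcon w hw X₀ hX₀A hX₀c
    · have hIy : HypI S A p := fun X hXA hXc hW => hWl ⟨X, hXA, hXc, hW⟩
      exact hI M E S A p hAb hIy
        (hSc M E S A p hAb hH hIy hT2 ⟨X₀, hX₀A, hX₀c, hX₀s⟩)

/-- (CASEB) from the pieces. -/
theorem caseB_of [Finite G] (hTau : StTauCases G) (hST : StSingTau2 G) (hAbS : StAbSExists G)
    (hHT2 : StHT2 G) (hPP : StPerPrime G) (hAsm : StAsmB G) : StCaseB G := by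
  intro M hM E hE hH hab
  apply hAsm M E (tau2 M)
  · intro e he q hq hord hqT
    have hne : e ≠ 1 := by
      rintro rfl
      rw [orderOf_one] at hord
      exact hq.ne_one hord.symm
    apply hH e he hne
    intro r hr hrd
    rw [hord] at hrd
    have hrq : r = q := (Nat.prime_dvd_prime_iff_eq hr hq).1 hrd
    subst hrq
    have hqE : r ∣ Nat.card E := by
      have := orderOf_dvd_natCard (⟨e, he⟩ : E)
      rwa [Subgroup.orderOf_mk, hord] at this
    rcases hTau M hM E hE r hr hqE with (h1 | h2) | h3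
    · exact Or.inl h1
    · exact absurd h2 hqT
    · exact Or.inr h3
  · exact fun y hy hs q hq hd => hST M hM E hE hH y hy hs q hq hd
  · intro p _ hpτ
    obtain ⟨S, A, hAb⟩ := hAbS M hM E hE p hpτ (hab p hpτ)
    have hT2 : HypT2 M E A p := by
      intro e he q hq hqp hqτ hk
      have : Fact q.Prime := ⟨hq⟩
      obtain ⟨S', A', hAb'⟩ := hAbS M hM E hE q hqτ (hab q hqτ)
      have h := hHT2 M E S A S' A' p q hAb hAb' hqp e he hk
      exact centralizer_le hAb.AS h
    obtain ⟨C, hCS, hEC, hexp, hreg⟩ := hPP M E S A p hAb hH hT2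
    exact ⟨S, C, hAb.le, hAb.norm, hAb.comm, hAb.syl, hCS, hEC, hexp, hreg⟩

/-- (CASEA) from the pieces. -/
theorem caseA_of [Finite G] (h18 : St1418 G) (h19 : St1419 G) (hST : StSingTau2 G)
    (hSA : StSingA G) (hNS : StNabStruct G) (hIC : StInvCompl G) (hAA : StAsmA G) :
    StCaseA G := by
  intro M E A p _ hN hH
  have hp : p.Prime := Fact.out
  have hM := hN.coatom
  have hE := hN.compl
  obtain ⟨hτ, ⟨hA0card, -⟩, -⟩ :=
    h19 M hM E hE p hN.tau hN.nab A ⟨hN.le, hN.elem, hN.card⟩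
  obtain ⟨⟨hEA, -⟩, -, -⟩ := h18 M hM E hE p hN.tau A ⟨hN.le, hN.elem, hN.card⟩
  obtain ⟨hs1, hs2⟩ := hSA M E A p hN
  have hsing : ∀ y ∈ E, Sing M y → y ∈ A ⊓ centralizer (sigmaCore M : Set G) := by
    intro y hy hs
    apply hs1 y hy _ hs
    have hpos : orderOf y ≠ 0 := (orderOf_pos y).ne'
    refine ⟨_, Nat.eq_prime_pow_of_unique_prime_dvd hpos ?_⟩
    intro d hd hdvd
    have := hST M hM E hE hH y hy hs d hd hdvd
    rw [hτ] at this
    exact this
  refine ⟨?_, ?_⟩
  · intro y hy y' hy' hs hs'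
    have h1 := (hsing y hy hs).1
    have h2 := (hsing y' hy' hs').1
    have hc := hN.elem.1
    have := hc.is_comm.comm (⟨y, h1⟩ : A) ⟨y', h2⟩
    exact congrArg Subtype.val this
  · obtain ⟨L, P, V, hLE, hLn, hLp, hAP, hPE, hPp, hPc, hVE, hVP, hVp, hfac⟩ := hNS M E A p hN
    have hA0P : A ⊓ centralizer (sigmaCore M : Set G) ≤ P := inf_le_left.trans hAP
    have hEA0 : E ≤ normalizer ((A ⊓ centralizer (sigmaCore M : Set G) : Subgroup G) : Set G) := by
      intro e he
      have heA := hEA he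
      have heσ : e ∈ normalizer (sigmaCore M : Set G) :=
        Cfsg.Agent.H57.BG12.le_normalizer_sigmaCore M (hE.1 he)
      have heC : e ∈ normalizer ((centralizer (sigmaCore M : Set G) : Subgroup G) : Set G) := by
        rw [mem_normalizer_iff]
        intro x
        constructor
        · intro hx
          rw [mem_centralizer_iff] at hx ⊢
          intro z hz
          have hz' : e⁻¹ * z * e⁻¹⁻¹ ∈ sigmaCore M := by
            have := (mem_normalizer_iff.mp (inv_mem heσ) z).1 hz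
            exact this
          have := hx _ hz'
          simp only [inv_inv] at this
          calc z * (e * x * e⁻¹) = e * ((e⁻¹ * z * e) * x) * e⁻¹ := by group
            _ = e * (x * (e⁻¹ * z * e)) * e⁻¹ := by rw [this]
            _ = e * x * e⁻¹ * z := by group
        · intro hx
          rw [mem_centralizer_iff] at hx ⊢
          intro z hz
          have hz' : e * z * e⁻¹ ∈ sigmaCore M := (mem_normalizer_iff.mp heσ z).1 hz
          have := hx _ hz'
          calc z * x = e⁻¹ * ((e * z * e⁻¹) * (e * x * e⁻¹)) * e := by group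
            _ = e⁻¹ * ((e * x * e⁻¹) * (e * z * e⁻¹)) * e := by rw [this]
            _ = x * z := by group
      rw [mem_normalizer_iff]
      intro x
      rw [mem_inf, mem_inf, ← (mem_normalizer_iff.mp heA x), ← (mem_normalizer_iff.mp heC x)]
    have hVA0 : V ≤ normalizer ((A ⊓ centralizer (sigmaCore M : Set G) : Subgroup G) : Set G) :=
      hVE.trans hEA0
    obtain ⟨D, hDP, hVD, hDA, hDsup⟩ :=
      hIC p P V (A ⊓ centralizer (sigmaCore M : Set G)) hPp hPc hVP hVp hA0P hA0card hVA0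
        (fun y hy h => hs2 y (hPE hy) h)
    have hp2 : p ^ 2 ∣ Nat.card P := hN.card ▸ Subgroup.card_dvd_of_le hAP
    obtain ⟨E₀, hE₀E, hE₀A, hexp⟩ :=
      hAA p E L P V D (A ⊓ centralizer (sigmaCore M : Set G)) hLE hLn hLp hPE hPp hPc hVE hVP
        hVp hfac hEA0 hA0card hA0P hp2 hDP hVD hDA hDsup
    refine ⟨E₀, hE₀E, hexp, ?_⟩
    intro e he hne
    by_contra hcon
    have h1 : e ∈ A ⊓ centralizer (sigmaCore M : Set G) := hsing e (hE₀E he) ⟨hne, hcon⟩
    have h2 : e ∈ E₀ ⊓ (A ⊓ centralizer (sigmaCore M : Set G)) := ⟨he, h1⟩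
    rw [hE₀A] at h2
    exact hne ((mem_bot).mp h2)

/-- S1421 from the pieces. -/
theorem st1421_of (hExA : StExA G) (hA : StCaseA G) (hB : StCaseB G) (hF : StConclFinal G) :
    St1421 G := by
  intro M hM E hE hH
  apply hF M hM E hE
  by_cases hnab : ∃ p : ℕ, ∃ _ : Fact p.Prime, p ∈ tau2 M ∧
      ∀ S : Sylow p G, ¬ IsMulCommutative (S : Subgroup G)
  · obtain ⟨p, hp, hpτ, hS⟩ := hnab
    obtain ⟨A, hAE, hAel, hAc⟩ := hExA M hM E hE p hpτ
    exact hA M E A p ⟨hM, hE, hpτ, hS, hAE, hAel, hAc⟩ hH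
  · apply hB M hM E hE hH
    intro p hp hpτ
    by_contra hcon
    exact hnab ⟨p, hp, hpτ, fun S hS => hcon ⟨S, hS⟩⟩

end Cfsg.Agent.H38.BG161
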