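import Mathlib
import Cfsg.Agent.H38.BG161Defs
import Cfsg.Agent.H57.BG126
import Cfsg.Agent.H20.BG161Lib
import Cfsg.Agent.H70.BG161Scalar

set_option autoImplicit false

/-!
# S1421-ORBIT (helper38): the orbit argument

Abstract core: a nilpotent `p'`-group `N`, an abelian group `A` acting on it, `k` of order `q`
acting fixed-point-freely on `N` and normalizing `A`, `X ≤ A` of order `p` such that
`C_N(X) ∩ C_N(k^j X k^-j) = 1` for `0 < j < q`.  Then `C_N(X) = 1`.
-/

namespace Cfsg.Agent.H38.BG161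

open Cfsg Subgroup Cfsg.Agent.H58.BG10 Cfsg.Agent.H58.BG12

universe u

variable {G : Type u} [Group G]

/-- The abelianization map of `K`, extended by `1` outside `K`. -/
noncomputable def abFun (K : Subgroup G) (g : G) : Abelianization K := by
  classical
  exact if h : g ∈ K then Abelianization.of ⟨g, h⟩ else 1

theorem abFun_mul (K : Subgroup G) : ∀ a ∈ K, ∀ b ∈ K, abFun K (a * b) = abFun K a * abFun K b := by
  classical
  intro a ha b hb
  unfold abFun
  simp only [dif_pos ha, dif_pos hb, dif_pos (K.mul_mem ha hb)]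
  rw [← map_mul]
  rfl

theorem abFun_eq_one (K : Subgroup G) : ∀ a ∈ K, abFun K a = 1 → a ∈ ⁅K, K⁆ := by
  classical
  intro a ha h
  unfold abFun at h
  simp only [dif_pos ha] at h
  have h1 : (⟨a, ha⟩ : K) ∈ (Abelianization.of : K →* Abelianization K).ker := h
  rw [Abelianization.ker_of] at h1
  have h2 : K.subtype ⟨a, ha⟩ ∈ (commutator K).map K.subtype := Subgroup.mem_map_of_mem _ h1
  rw [commutator_def, Subgroup.map_commutator, ← MonoidHom.range_eq_map, Subgroup.range_subtype]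
    at h2
  exact h2

/-- Frobenius: a fixed-point-free `k` on the finite `k`-invariant `N` has `(v k)^q = 1` whenever
`k^q = 1`. -/
theorem frob_pow [Finite G] {N : Subgroup G} {k : G} {q : ℕ}
    (hkN : k ∈ normalizer (N : Set G)) (hk : ∀ n ∈ N, k * n = n * k → n = 1) (hkq : k ^ q = 1) :
    ∀ v ∈ N, (v * k) ^ q = 1 := by
  have ck : ∀ a ∈ N, k * a * k⁻¹ ∈ N := fun a ha => (mem_normalizer_iff.mp hkN a).mp ha
  let f : N → N := fun n => ⟨(n : G)⁻¹ * (k * n * k⁻¹), N.mul_mem (N.inv_mem n.2) (ck n n.2)⟩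
  have hinj : Function.Injective f := by
    intro n m hnm
    have h1 : (n : G)⁻¹ * (k * n * k⁻¹) = (m : G)⁻¹ * (k * m * k⁻¹) := congrArg Subtype.val hnm
    have h2 : k * ((m : G) * (n : G)⁻¹) = ((m : G) * (n : G)⁻¹) * k := by
      have h3 : (n : G)⁻¹ * k * n = (m : G)⁻¹ * k * m := by
        have := congrArg (fun t => t * k) h1
        simpa [mul_assoc] using this
      calc k * ((m : G) * (n : G)⁻¹) = (m : G) * ((m : G)⁻¹ * k * m) * (n : G)⁻¹ := by group
        _ = (m : G) * ((n : G)⁻¹ * k * n) * (n : G)⁻¹ := by rw [h3]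
        _ = _ := by group
    have h4 := hk _ (N.mul_mem m.2 (N.inv_mem n.2)) h2
    have h5 : (m : G) = n := by
      have := mul_inv_eq_one.mp h4
      exact this
    exact Subtype.ext h5.symm
  have hsurj : Function.Surjective f := Finite.injective_iff_surjective.mp hinj
  intro v hv
  obtain ⟨n, hn⟩ := hsurj ⟨v, hv⟩
  have hv' : v = (n : G)⁻¹ * (k * n * k⁻¹) := (congrArg Subtype.val hn).symm
  have h6 : v * k = (n : G)⁻¹ * k * n := by rw [hv']; group
  rw [h6]
  have h7 : ((n : G)⁻¹ * k * n) ^ q = (n : G)⁻¹ * k ^ q * n := by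
    have := conj_pow (a := (n : G)⁻¹) (b := k) (i := q)
    simpa using this
  rw [h7, hkq]
  group

/-- The step of the orbit argument. -/
theorem orbit_step [Finite G] {K L X : Subgroup G} {k : G} {p q : ℕ}
    (hXp : Nat.card X = p) (hLK : ⁅K, K⁆ ≤ L)
    (hkK : k ∈ normalizer (K : Set G)) (hXK : X ≤ normalizer (K : Set G))
    (hL : ∀ j : ℕ, ∀ z ∈ L,
      (∀ x ∈ X, (k ^ j * x * (k ^ j)⁻¹) * z = z * (k ^ j * x * (k ^ j)⁻¹)) → z = 1)
    (hcomm : ∀ x ∈ X, ∀ x' ∈ X, ∀ j : ℕ,
      x * (k ^ j * x' * (k ^ j)⁻¹) = (k ^ j * x' * (k ^ j)⁻¹) * x)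
    (hgen : ∀ j : ℕ, 0 < j → j < q → ∀ n ∈ K, (∀ x ∈ X, x * n = n * x) →
      (∀ x ∈ X, (k ^ j * x * (k ^ j)⁻¹) * n = n * (k ^ j * x * (k ^ j)⁻¹)) → n = 1)
    (hq0 : 0 < q) (hfrob : ∀ v ∈ K, (v * k) ^ q = 1) (hkq : k ^ q = 1)
    (hcop : ∀ v ∈ K, v ^ p = 1 → v = 1) :
    ∀ v ∈ K, (∀ x ∈ X, x * v = v * x) → v = 1 := by
  classical
  intro v hv hvX
  have : Fintype X := Fintype.ofFinite X
  have ψmul : ∀ a ∈ K, ∀ b ∈ K, abFun K (a * b) = abFun K a * abFun K b := abFun_mul K
  have ψone : abFun K 1 = 1 := by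
    have h := ψmul 1 K.one_mem 1 K.one_mem
    rw [mul_one] at h
    exact left_eq_mul.mp h
  have ψinv : ∀ a ∈ K, abFun K a⁻¹ = (abFun K a)⁻¹ := by
    intro a ha
    have h := ψmul a ha a⁻¹ (K.inv_mem ha)
    rw [mul_inv_cancel, ψone] at h
    exact eq_inv_of_mul_eq_one_right h.symm
  have ψpow : ∀ a ∈ K, ∀ m : ℕ, abFun K (a ^ m) = abFun K a ^ m := by
    intro a ha m
    induction m with
    | zero => simp [ψone]
    | succ m ih => rw [pow_succ, ψmul _ (K.pow_mem ha m) _ ha, ih, pow_succ]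
  have cX : ∀ x ∈ X, ∀ a ∈ K, x * a * x⁻¹ ∈ K :=
    fun x hx a ha => (mem_normalizer_iff.mp (hXK hx) a).mp ha
  have ck : ∀ j : ℕ, ∀ a ∈ K, k ^ j * a * (k ^ j)⁻¹ ∈ K := fun j a ha =>
    (mem_normalizer_iff.mp ((normalizer (K : Set G)).pow_mem hkK j) a).mp ha
  -- the norm map
  let Φ : G → Abelianization K := fun a => ∏ x : X, abFun K ((x : G) * a * (x : G)⁻¹)
  have Φmul : ∀ a ∈ K, ∀ b ∈ K, Φ (a * b) = Φ a * Φ b := by
    intro a ha b hb
    show (∏ x : X, abFun K ((x : G) * (a * b) * (x : G)⁻¹)) =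
      (∏ x : X, abFun K ((x : G) * a * (x : G)⁻¹)) * ∏ x : X, abFun K ((x : G) * b * (x : G)⁻¹)
    rw [← Finset.prod_mul_distrib]
    refine Finset.prod_congr rfl fun x _ => ?_
    rw [← ψmul _ (cX x x.2 a ha) _ (cX x x.2 b hb)]
    congr 1
    group
  have Φone : Φ 1 = 1 := by
    show (∏ x : X, abFun K ((x : G) * 1 * (x : G)⁻¹)) = 1
    refine Finset.prod_eq_one fun x _ => ?_
    rw [mul_one, mul_inv_cancel, ψone]
  -- the telescoping product
  have hu : ∀ m : ℕ, (v * k) ^ m * (k ^ m)⁻¹ ∈ K ∧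
      Φ ((v * k) ^ m * (k ^ m)⁻¹) = ∏ j ∈ Finset.range m, Φ (k ^ j * v * (k ^ j)⁻¹) := by
    intro m
    induction m with
    | zero =>
      refine ⟨by simp, ?_⟩
      simp only [pow_zero, inv_one, mul_one, Finset.range_zero, Finset.prod_empty]
      exact Φone
    | succ m ih =>
      have e : (v * k) ^ (m + 1) * (k ^ (m + 1))⁻¹ =
          ((v * k) ^ m * (k ^ m)⁻¹) * (k ^ m * v * (k ^ m)⁻¹) := by
        rw [pow_succ, pow_succ]
        group
      rw [e]
      refine ⟨K.mul_mem ih.1 (ck m v hv), ?_⟩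
      rw [Φmul _ ih.1 _ (ck m v hv), ih.2, Finset.prod_range_succ]
  have h1 : ∏ j ∈ Finset.range q, Φ (k ^ j * v * (k ^ j)⁻¹) = 1 := by
    rw [← (hu q).2, hfrob v hv, hkq]
    simpa using Φone
  -- the conjugates contribute nothing
  have h2 : ∀ j, 0 < j → j < q → Φ (k ^ j * v * (k ^ j)⁻¹) = 1 := by
    intro j hj0 hjq
    set a := k ^ j * v * (k ^ j)⁻¹ with ha
    have haK : a ∈ K := ck j v hv
    have haC : ∀ x ∈ X, (k ^ j * x * (k ^ j)⁻¹) * a = a * (k ^ j * x * (k ^ j)⁻¹) := by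
      intro x hx
      have h := hvX x hx
      rw [ha]
      calc k ^ j * x * (k ^ j)⁻¹ * (k ^ j * v * (k ^ j)⁻¹)
          = k ^ j * (x * v) * (k ^ j)⁻¹ := by group
        _ = k ^ j * (v * x) * (k ^ j)⁻¹ := by rw [h]
        _ = _ := by group
    have key : ∀ T : Finset X, ∃ w ∈ K,
        (∀ x ∈ X, (k ^ j * x * (k ^ j)⁻¹) * w = w * (k ^ j * x * (k ^ j)⁻¹)) ∧
        ∀ y ∈ X, abFun K (y * w * y⁻¹) =
          ∏ x ∈ T, abFun K (y * ((x : G) * a * (x : G)⁻¹) * y⁻¹) := by
      intro T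
      induction T using Finset.induction_on with
      | empty =>
        exact ⟨1, K.one_mem, fun x _ => by simp, fun y _ => by simp [ψone]⟩
      | insert x₀ T hx₀ ih =>
        obtain ⟨w, hwK, hwC, hwψ⟩ := ih
        have hb : (x₀ : G) * a * (x₀ : G)⁻¹ ∈ K := cX _ x₀.2 a haK
        refine ⟨(x₀ : G) * a * (x₀ : G)⁻¹ * w, K.mul_mem hb hwK, ?_, ?_⟩
        · intro x hx
          have e1 : (x₀ : G) * (k ^ j * x * (k ^ j)⁻¹) = (k ^ j * x * (k ^ j)⁻¹) * (x₀ : G) :=
            hcomm x₀ x₀.2 x hx j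
          have e2 := haC x hx
          have e3 := hwC x hx
          generalize k ^ j * x * (k ^ j)⁻¹ = t at e1 e2 e3 ⊢
          have c1 : Commute t (x₀ : G) := e1.symm
          have c2 : Commute t a := e2
          have c3 : Commute t w := e3
          exact (((c1.mul_right c2).mul_right c1.inv_right).mul_right c3).eq
        · intro y hy
          rw [Finset.prod_insert hx₀, ← hwψ y hy, ← ψmul _ (cX y hy _ hb) _ (cX y hy _ hwK)]
          congr 1
          group
    obtain ⟨w, hwK, hwC, hwψ⟩ := key Finset.univ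
    have hyw : ∀ y ∈ X, abFun K (y * w * y⁻¹) = Φ a := by
      intro y hy
      rw [hwψ y hy]
      show (∏ x : X, abFun K (y * ((x : G) * a * (x : G)⁻¹) * y⁻¹)) =
        ∏ x : X, abFun K ((x : G) * a * (x : G)⁻¹)
      refine Fintype.prod_equiv (Equiv.mulLeft (⟨y, hy⟩ : X)) _ _ fun x => ?_
      congr 1
      simp only [Equiv.coe_mulLeft, Subgroup.coe_mul, mul_inv_rev]
      group
    have hw1 : abFun K w = Φ a := by
      have h := hyw 1 X.one_mem
      simpa using h
    have hwX : ∀ y ∈ X, y * w = w * y := by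
      intro y hy
      have hz : w⁻¹ * (y * w * y⁻¹) ∈ L := by
        apply hLK
        apply abFun_eq_one K _ (K.mul_mem (K.inv_mem hwK) (cX y hy w hwK))
        rw [ψmul _ (K.inv_mem hwK) _ (cX y hy w hwK), ψinv w hwK, hyw y hy, hw1, inv_mul_cancel]
      have hz1 := hL j _ hz (by
        intro x hx
        have e1 : y * (k ^ j * x * (k ^ j)⁻¹) = (k ^ j * x * (k ^ j)⁻¹) * y := hcomm y hy x hx j
        have e3 := hwC x hx
        generalize k ^ j * x * (k ^ j)⁻¹ = t at e1 e3 ⊢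
        have c1 : Commute t y := e1.symm
        have c3 : Commute t w := e3
        exact (c3.inv_right.mul_right ((c1.mul_right c3).mul_right c1.inv_right)).eq)
      have hz2 : y * w * y⁻¹ = w := by
        have := inv_mul_eq_one.mp hz1
        exact this.symm
      calc y * w = y * w * y⁻¹ * y := by group
        _ = w * y := by rw [hz2]
    have hw : w = 1 := hgen j hj0 hjq w hwK hwX hwC
    rw [← hw1, hw, ψone]
  -- conclusion
  have h3 : Φ v = abFun K v ^ p := by
    show (∏ x : X, abFun K ((x : G) * v * (x : G)⁻¹)) = abFun K v ^ p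
    have h : ∀ x : X, abFun K ((x : G) * v * (x : G)⁻¹) = abFun K v := by
      intro x
      rw [hvX x x.2]
      congr 1
      group
    rw [Finset.prod_congr rfl (fun x _ => h x), Finset.prod_const, Finset.card_univ,
      ← Nat.card_eq_fintype_card, hXp]
  obtain ⟨q', rfl⟩ : ∃ q', q = q' + 1 := ⟨q - 1, by omega⟩
  rw [Finset.prod_range_succ'] at h1
  have h4 : ∏ j ∈ Finset.range q', Φ (k ^ (j + 1) * v * (k ^ (j + 1))⁻¹) = 1 :=
    Finset.prod_eq_one fun j hj => h2 (j + 1) (by omega) (by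
      have := Finset.mem_range.mp hj
      omega)
  rw [h4, one_mul] at h1
  simp only [pow_zero, inv_one, mul_one, one_mul] at h1
  rw [h3, ← ψpow v hv p] at h1
  have h5 : v ^ p ∈ L := hLK (abFun_eq_one K _ (K.pow_mem hv p) h1)
  have h6 : v ^ p = 1 := hL 0 _ h5 (by
    intro x hx
    simp only [pow_zero, inv_one, mul_one, one_mul]
    have c : Commute x v := hvX x hx
    exact (c.pow_right p).eq)
  exact hcop v hv h6

/-- Elements normalizing `N` normalize its lower central series. -/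
theorem normalizer_le_lcs (N : Subgroup G) (n : ℕ) :
    normalizer (N : Set G) ≤ normalizer ((N.lowerCentralSeries n : Subgroup G) : Set G) := by
  have key : ∀ g ∈ normalizer (N : Set G), ∀ h ∈ N.lowerCentralSeries n,
      g * h * g⁻¹ ∈ N.lowerCentralSeries n := by
    intro g hg h hh
    have hmap : N.map (MulAut.conj g).toMonoidHom = N := by
      ext x
      constructor
      · rintro ⟨y, hy, rfl⟩
        exact (mem_normalizer_iff.mp hg y).mp hy
      · intro hx
        refine ⟨g⁻¹ * x * g, ?_, by simp [MulAut.conj_apply, mul_assoc]⟩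
        have := (mem_normalizer_iff.mp ((normalizer (N : Set G)).inv_mem hg) x).mp hx
        simpa using this
    have h1 : (N.lowerCentralSeries n).map (MulAut.conj g).toMonoidHom =
        N.lowerCentralSeries n := by
      rw [map_lowerCentralSeries, hmap]
    rw [← h1]
    exact ⟨h, hh, by simp [MulAut.conj_apply]⟩
  intro g hg
  rw [mem_normalizer_iff]
  intro h
  constructor
  · exact key g hg h
  · intro hh
    have := key g⁻¹ ((normalizer (N : Set G)).inv_mem hg) _ hh
    simpa [mul_assoc] using this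

/-- The abstract orbit argument. -/
theorem orbit_abs [Finite G] {N A X : Subgroup G} {k : G} {p q : ℕ} (hq0 : 0 < q)
    (hNil : Group.IsNilpotent N) (hcopN : (Nat.card N).Coprime p)
    (hkN : k ∈ normalizer (N : Set G)) (hAN : A ≤ normalizer (N : Set G))
    (hkA : k ∈ normalizer (A : Set G)) (hAc : ∀ a ∈ A, ∀ b ∈ A, a * b = b * a)
    (hXA : X ≤ A) (hXp : Nat.card X = p)
    (hgen : ∀ j : ℕ, 0 < j → j < q → ∀ n ∈ N, (∀ x ∈ X, x * n = n * x) →
      (∀ x ∈ X, (k ^ j * x * (k ^ j)⁻¹) * n = n * (k ^ j * x * (k ^ j)⁻¹)) → n = 1)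
    (hk : ∀ n ∈ N, k * n = n * k → n = 1) (hkq : k ^ q = 1) :
    ∀ v ∈ N, (∀ x ∈ X, x * v = v * x) → v = 1 := by
  obtain ⟨m, hm⟩ := (isNilpotent_iff_lowerCentralSeries N).mp hNil
  have hfrob := frob_pow hkN hk hkq
  have hle : ∀ n, N.lowerCentralSeries n ≤ N := fun n => by
    have := N.lowerCentralSeries_antitone (Nat.zero_le n)
    simpa using this
  have hcop : ∀ v ∈ N, v ^ p = 1 → v = 1 := by
    intro v hv hvp
    have h1 : orderOf v ∣ p := orderOf_dvd_of_pow_eq_one hvp
    have h2 : orderOf v ∣ Nat.card N := by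
      have := orderOf_dvd_natCard (⟨v, hv⟩ : N)
      rwa [Subgroup.orderOf_mk] at this
    have h3 : orderOf v = 1 := Nat.eq_one_of_dvd_coprimes hcopN h2 h1
    exact orderOf_eq_one_iff.mp h3
  have hcomm : ∀ x ∈ X, ∀ x' ∈ X, ∀ j : ℕ,
      x * (k ^ j * x' * (k ^ j)⁻¹) = (k ^ j * x' * (k ^ j)⁻¹) * x := by
    intro x hx x' hx' j
    exact hAc x (hXA hx) _
      ((mem_normalizer_iff.mp ((normalizer (A : Set G)).pow_mem hkA j) x').mp (hXA hx'))
  have main : ∀ i, i ≤ m → ∀ v ∈ N.lowerCentralSeries (m - i),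
      (∀ x ∈ X, x * v = v * x) → v = 1 := by
    intro i
    induction i with
    | zero =>
      intro _ v hv _
      rw [Nat.sub_zero, hm] at hv
      exact Subgroup.mem_bot.mp hv
    | succ i ih =>
      intro hi
      have ih' := ih (by omega)
      have hsucc : N.lowerCentralSeries (m - i) = ⁅N.lowerCentralSeries (m - (i + 1)), N⁆ := by
        have : m - i = (m - (i + 1)) + 1 := by omega
        rw [this, Subgroup.lowerCentralSeries_succ]
      have hKN : N.lowerCentralSeries (m - (i + 1)) ≤ N := hle _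
      have hkK : k ∈ normalizer ((N.lowerCentralSeries (m - (i + 1)) : Subgroup G) : Set G) :=
        normalizer_le_lcs N _ hkN
      have hkL : k ∈ normalizer ((N.lowerCentralSeries (m - i) : Subgroup G) : Set G) :=
        normalizer_le_lcs N _ hkN
      refine orbit_step (L := N.lowerCentralSeries (m - i)) hXp ?_ hkK ?_ ?_ hcomm ?_ hq0
        (fun v hv => hfrob v (hKN hv)) hkq (fun v hv => hcop v (hKN hv))
      · rw [hsucc]
        exact Subgroup.commutator_mono le_rfl hKN
      · exact fun x hx => normalizer_le_lcs N _ (hAN (hXA hx))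
      · intro j z hz hzC
        have hkj : (k ^ j)⁻¹ ∈ normalizer ((N.lowerCentralSeries (m - i) : Subgroup G) : Set G) :=
          (normalizer _).inv_mem ((normalizer _).pow_mem hkL j)
        have hz' : (k ^ j)⁻¹ * z * ((k ^ j)⁻¹)⁻¹ ∈ N.lowerCentralSeries (m - i) :=
          (mem_normalizer_iff.mp hkj z).mp hz
        have h1 := ih' _ hz' (by
          intro x hx
          have h := hzC x hx
          calc x * ((k ^ j)⁻¹ * z * ((k ^ j)⁻¹)⁻¹)
              = (k ^ j)⁻¹ * ((k ^ j * x * (k ^ j)⁻¹) * z) * k ^ j := by group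
            _ = (k ^ j)⁻¹ * (z * (k ^ j * x * (k ^ j)⁻¹)) * k ^ j := by rw [h]
            _ = _ := by group)
        have h2 : z = k ^ j * ((k ^ j)⁻¹ * z * ((k ^ j)⁻¹)⁻¹) * (k ^ j)⁻¹ := by group
        rw [h2, h1]
        group
      · intro j hj0 hjq n hn hnX hnC
        exact hgen j hj0 hjq n (hKN hn) hnX hnC
  intro v hv
  exact main m le_rfl v (by simpa using hv)

/-- (ORBIT). -/
theorem orbit [Finite G] (h50 : St1350 G) (h17 : St1417 G) (hB : StBasic G) : StOrbit G := by
  intro M E S A p _ hAb k q hq hkE hkord X hXA hXp hkX hX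
  have hp : p.Prime := Fact.out
  by_contra hcon
  have hcon' : sigmaCore M ⊓ centralizer ({k} : Set G) = ⊥ := hcon
  have hM := hAb.coatom
  have hE := hAb.compl
  have hEM : E ≤ M := hE.1
  have hAE : A ≤ E := hAb.AS.trans hAb.le
  obtain ⟨hNil, -, -, hCA, -, -⟩ := h17 M hM p hAb.tau A ⟨hAE.trans hEM, hAb.elem, hAb.card⟩
  obtain ⟨-, -, hEA, -, -, -⟩ := hB M E S A p hAb
  have hMN := Cfsg.Agent.H57.BG12.le_normalizer_sigmaCore M
  have hkq : k ^ q = 1 := hkord ▸ pow_orderOf_eq_one k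
  have hcopN : (Nat.card (sigmaCore M)).Coprime p := by
    have h1 : ¬ p ∣ Nat.card (sigmaCore M) := fun hd => hAb.tau.2.1 ((h50 M hM).1.2.1 p hp hd)
    exact ((Nat.Prime.coprime_iff_not_dvd hp).mpr h1).symm
  have hAc : ∀ a ∈ A, ∀ b ∈ A, a * b = b * a :=
    fun a ha b hb => hAb.comm a (hAb.AS ha) b (hAb.AS hb)
  have hk : ∀ n ∈ sigmaCore M, k * n = n * k → n = 1 := by
    intro n hn hkn
    have : n ∈ sigmaCore M ⊓ centralizer ({k} : Set G) :=
      ⟨hn, mem_centralizer_iff.mpr (fun h hh => by rw [Set.mem_singleton_iff.mp hh]; exact hkn)⟩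
    rw [hcon'] at this
    exact Subgroup.mem_bot.mp this
  have hgen : ∀ j : ℕ, 0 < j → j < q → ∀ n ∈ sigmaCore M, (∀ x ∈ X, x * n = n * x) →
      (∀ x ∈ X, (k ^ j * x * (k ^ j)⁻¹) * n = n * (k ^ j * x * (k ^ j)⁻¹)) → n = 1 := by
    intro j hj0 hjq n hn hnX hnC
    have hkjA : k ^ j ∈ normalizer (A : Set G) := (normalizer (A : Set G)).pow_mem (hEA hkE) j
    have hXC : X ≤ A ⊓ centralizer ({n} : Set G) := fun x hx =>
      ⟨hXA hx, mem_centralizer_iff.mpr (fun h hh => by
        rw [Set.mem_singleton_iff.mp hh]; exact (hnX x hx).symm)⟩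
    have hXjC : ∀ x ∈ X, k ^ j * x * (k ^ j)⁻¹ ∈ A ⊓ centralizer ({n} : Set G) := fun x hx =>
      ⟨(mem_normalizer_iff.mp hkjA x).mp (hXA hx), mem_centralizer_iff.mpr (fun h hh => by
        rw [Set.mem_singleton_iff.mp hh]; exact (hnC x hx).symm)⟩
    have hCA' : A ⊓ centralizer ({n} : Set G) = A := by
      by_contra hne
      have hCne : A ⊓ centralizer ({n} : Set G) ≠ ⊥ := by
        intro hbot
        have hX1 : X = ⊥ := le_bot_iff.mp (hbot ▸ hXC)
        rw [hX1, Subgroup.card_bot] at hXp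
        exact hp.one_lt.ne hXp
      have hCp : Nat.card (A ⊓ centralizer ({n} : Set G) : Subgroup G) = p :=
        Cfsg.Agent.H20.BG161.card_eq_prime_of_ne inf_le_left hAb.card hCne hne
      have hXeq : X = A ⊓ centralizer ({n} : Set G) :=
        Subgroup.eq_of_le_of_card_ge hXC (by rw [hCp, hXp])
      have hkjX : k ^ j ∈ normalizer (X : Set G) := by
        apply Cfsg.Agent.H70.BG161.mem_normalizer_of_conj_mem
        intro x hx
        have := hXjC x hx
        rw [← hXeq] at this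
        exact this
      apply hkX
      have hcop : Nat.Coprime j q :=
        ((Nat.Prime.coprime_iff_not_dvd hq).mpr (Nat.not_dvd_of_pos_of_lt hj0 hjq)).symm
      obtain ⟨m, -, hm⟩ := Nat.exists_mul_mod_eq_one_of_coprime hcop hq.one_lt
      have hkm : k = (k ^ j) ^ m := by
        rw [← pow_mul, ← pow_mod_orderOf, hkord, hm, pow_one]
      rw [hkm]
      exact (normalizer (X : Set G)).pow_mem hkjX m
    have hnA : n ∈ centralizer (A : Set G) := by
      rw [mem_centralizer_iff]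
      intro a ha
      have haC : a ∈ A ⊓ centralizer ({n} : Set G) := by
        rw [hCA']
        exact ha
      exact (mem_centralizer_iff.mp haC.2 n rfl).symm
    have hmem : n ∈ sigmaCore M ⊓ centralizer (A : Set G) := ⟨hn, hnA⟩
    rw [hCA] at hmem
    exact Subgroup.mem_bot.mp hmem
  have hfin := orbit_abs hq.pos hNil hcopN (hMN (hEM hkE)) (hAE.trans (hEM.trans hMN))
    (hEA hkE) hAc hXA hXp hgen hk hkq
  apply hX
  rw [eq_bot_iff]
  intro v hv
  rw [Subgroup.mem_bot]
  exact hfin v hv.1 (fun x hx => mem_centralizer_iff.mp hv.2 x hx)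

example [Finite G] (h50 : St1350 G) (h17 : St1417 G) (hB : StBasic G) :
    ∀ (M E S A : Subgroup G) (p : ℕ) [Fact p.Prime], AbS M E S A p →
    ∀ (k : G) (q : ℕ), q.Prime → k ∈ E → orderOf k = q →
    ∀ X : Subgroup G, X ≤ A → Nat.card X = p → k ∉ normalizer (X : Set G) →
      sigmaCore M ⊓ centralizer (X : Set G) ≠ ⊥ →
      sigmaCore M ⊓ centralizer ({k} : Set G) ≠ ⊥ := orbit h50 h17 hB

end Cfsg.Agent.H38.BG161
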