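import Mathlib
import Cfsg.Agent.H38.BG161Asm

set_option autoImplicit false

/-!
# S1421 piece SINGA (helper38): singular `p`-elements in the nonabelian case lie in `C_A(M_σ)`
-/

namespace Cfsg.Agent.H38.BG161

open Cfsg Subgroup Cfsg.Agent.H58.BG10 Cfsg.Agent.H58.BG12 Cfsg.Agent.H57.BG1218

universe u

variable {G : Type u} [Group G]

/-- (SINGA). -/
theorem singA [Finite G] (h18 : St1418 G) (h19 : St1419 G) (hNab : StCase2Nab G)
    (hne : ∀ M : Subgroup G, IsCoatom M → sigmaCore M ≠ ⊥) : StSingA G := by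
  intro M E A p _ hN
  have hp : p.Prime := Fact.out
  have hM := hN.coatom
  have hE := hN.compl
  obtain ⟨⟨-, hXA⟩, -, h18c⟩ := h18 M hM E hE p hN.tau A ⟨hN.le, hN.elem, hN.card⟩
  obtain ⟨-, -, h19c⟩ := h19 M hM E hE p hN.tau hN.nab A ⟨hN.le, hN.elem, hN.card⟩
  have key : ∀ y ∈ E, ∀ k : ℕ, orderOf y = p ^ (k + 1) →
      sigmaCore M ⊓ centralizer ((zpowers (y ^ (p ^ k)) : Subgroup G) : Set G) ≠ ⊥ →
      zpowers y = zpowers (y ^ (p ^ k)) ∧
        zpowers (y ^ (p ^ k)) = A ⊓ centralizer (sigmaCore M : Set G) := by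
    intro y hy k hk hs
    have hXord : orderOf (y ^ (p ^ k)) = p := by
      rw [orderOf_pow_of_dvd (pow_pos hp.pos k).ne' (hk ▸ pow_dvd_pow p (Nat.le_succ k)), hk,
        pow_succ, Nat.mul_div_cancel_left _ (pow_pos hp.pos k)]
    have hXcard : Nat.card (zpowers (y ^ (p ^ k))) = p := by rw [Nat.card_zpowers, hXord]
    have hXE : zpowers (y ^ (p ^ k)) ≤ E := zpowers_le.mpr (E.pow_mem hy _)
    have hXA' : zpowers (y ^ (p ^ k)) ≤ A := hXA _ hXE hXcard
    have hXeq : zpowers (y ^ (p ^ k)) = A ⊓ centralizer (sigmaCore M : Set G) := by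
      by_contra hne'
      exact hs (h19c _ hXE hXcard hne').1
    have hCX : centralizer ((zpowers (y ^ (p ^ k)) : Subgroup G) : Set G) ≤ M :=
      (h18c _ hXA' hXcard hs).1
    have hcyc : IsCyclic (zpowers y) := inferInstance
    have hyp : IsPGroup p (zpowers y) :=
      IsPGroup.of_card (n := k + 1) (by rw [Nat.card_zpowers, hk])
    have h := hNab M hM p hN.tau hN.nab (zpowers y) (zpowers (y ^ (p ^ k))) hyp hcyc
      (zpowers_le.mpr (pow_mem (mem_zpowers y) _)) hXcard hCX
    exact ⟨h, hXeq⟩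
  refine ⟨?_, ?_⟩
  · rintro y hy ⟨k, hk⟩ hs
    have hk0 : k ≠ 0 := by
      rintro rfl
      rw [pow_zero, orderOf_eq_one_iff] at hk
      exact hs.1 hk
    obtain ⟨k', rfl⟩ := Nat.exists_eq_succ_of_ne_zero hk0
    have hs' : sigmaCore M ⊓ centralizer ((zpowers (y ^ (p ^ k')) : Subgroup G) : Set G) ≠ ⊥ := by
      intro h0
      exact hs.2 (le_bot_iff.mp
        (h0 ▸ inf_le_inf_left _ (cent_singleton_le_cent_zpowers_pow y (p ^ k'))))
    obtain ⟨h1, h2⟩ := key y hy k' hk hs'
    rw [← h2, ← h1]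
    exact mem_zpowers y
  · intro y hy hyp
    by_contra hne1
    have hyp1 : (y ^ p) ^ p = 1 := hN.elem.2 _ hyp.1
    have hord2 : orderOf y = p ^ 2 := by
      have hd : orderOf y ∣ p ^ 2 :=
        orderOf_dvd_of_pow_eq_one (by rw [pow_two, pow_mul]; exact hyp1)
      obtain ⟨i, hi, hi'⟩ := (Nat.dvd_prime_pow hp).1 hd
      interval_cases i
      · rw [pow_zero, orderOf_eq_one_iff] at hi'
        exact absurd (by rw [hi', one_pow]) hne1
      · rw [pow_one] at hi'
        exact absurd (hi' ▸ pow_orderOf_eq_one y) hne1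
      · exact hi'
    have hs' : sigmaCore M ⊓ centralizer ((zpowers (y ^ (p ^ 1)) : Subgroup G) : Set G) ≠ ⊥ := by
      rw [pow_one]
      have hle : sigmaCore M ≤ centralizer ((zpowers (y ^ p) : Subgroup G) : Set G) := by
        intro z hz
        rw [mem_centralizer_iff]
        intro x hx
        obtain ⟨i, rfl⟩ := mem_zpowers_iff.mp hx
        have h1 : y ^ p ∈ centralizer (sigmaCore M : Set G) := hyp.2
        have h2 : (y ^ p) ^ i ∈ centralizer (sigmaCore M : Set G) := zpow_mem h1 i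
        exact (mem_centralizer_iff.mp h2 z hz).symm
      rw [inf_eq_left.mpr hle]
      exact hne M hM
    obtain ⟨h1, -⟩ := key y hy 1 (by rw [hord2]) hs'
    have hc : Nat.card (zpowers y) = Nat.card (zpowers (y ^ (p ^ 1))) := congrArg (fun H : Subgroup G => Nat.card H) h1
    rw [Nat.card_zpowers, Nat.card_zpowers, hord2, pow_one,
      orderOf_pow_of_dvd hp.pos.ne' (hord2 ▸ dvd_pow_self p (by norm_num)), hord2, pow_two,
      Nat.mul_div_cancel_left _ hp.pos] at hc
    have := hp.one_lt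
    nlinarith

end Cfsg.Agent.H38.BG161
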