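import Mathlib
import Cfsg.Agent.H14.CqDefs

/-!
# CQ-CARDP (helper38, for helper14): the number of totally singular `m`-spaces of the plus space

Arithmetic assembly from `StTuples`, `StFib`, `StZPlus`.
-/

set_option autoImplicit false

namespace Cfsg.Agent.H38.Cq

open Cfsg.Agent.H77.Tq Cfsg.Agent.H77.Tm Cfsg.Agent.H14.Cq Module

universe u

/-- The `j`-th factor of the tuple count for the plus form. -/
theorem cardP_factor (q d j Z : ℕ) (hq : 1 ≤ q) (hjd : j < d)
    (hZ : Z + q ^ (d - 1) = q ^ (2 * d - 1) + q ^ d) :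
    Z + q ^ (2 * d - 1 - j) - q ^ (2 * d - 1) - q ^ j =
      q ^ j * ((q ^ (d - j) - 1) * (q ^ (d - 1 - j) + 1)) := by
  have e1 : q ^ (d - 1) = q ^ j * q ^ (d - 1 - j) := by
    rw [← pow_add]; congr 1; omega
  have e2 : q ^ d = q * (q ^ j * q ^ (d - 1 - j)) := by
    rw [← pow_add, ← pow_succ']; congr 1; omega
  have e3 : q ^ (d - j) = q * q ^ (d - 1 - j) := by
    rw [← pow_succ']; congr 1; omega
  have e4 : q ^ (2 * d - 1 - j) = q * (q ^ j * q ^ (d - 1 - j) * q ^ (d - 1 - j)) := by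
    rw [← pow_add, ← pow_add, ← pow_succ']; congr 1; omega
  have e5 : q ^ (2 * d - 1) = q * (q ^ j * q ^ (d - 1 - j) * (q ^ j * q ^ (d - 1 - j))) := by
    rw [← pow_add, ← pow_add, ← pow_succ']; congr 1; omega
  rw [e1, e2, e5] at hZ
  rw [e3, e4, e5]
  have hy : 1 ≤ q ^ (d - 1 - j) := Nat.one_le_pow _ q hq
  generalize q ^ j = x at *
  generalize q ^ (d - 1 - j) = y at *
  obtain ⟨e, he⟩ : ∃ e, q * y = e + 1 :=
    ⟨q * y - 1, by have := Nat.mul_le_mul hq hy; omega⟩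
  rw [he]
  have key : Z + q * (x * y * y) =
      x * (e * (y + 1)) + (q * (x * y * (x * y)) + x) := by
    have h : Z + q * (x * y * y) + x * y =
        x * (e * (y + 1)) + (q * (x * y * (x * y)) + x) + x * y := by
      calc Z + q * (x * y * y) + x * y
          = (Z + x * y) + (q * y) * (x * y) := by ring
        _ = q * (x * y * (x * y)) + (q * y) * x + (q * y) * (x * y) := by rw [hZ]; ring
        _ = _ := by rw [he]; ring
    exact Nat.add_right_cancel h
  rw [Nat.sub_sub, key, Nat.add_sub_cancel, Nat.add_sub_cancel]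

/-- CQ-CARDP. -/
theorem cardP (hT : StTuples.{u, u}) (hF : StFib.{u, u}) (hZ : StZPlus.{u}) : StCardP.{u} := by
  intro F _ _ d m hmd
  have hnd : ∀ x, (∀ y, QuadraticMap.polar ⇑(Cfsg.Agent.H49.QP d F) x y = 0) → x = 0 := by
    intro x hx
    exact (Cfsg.Agent.H49.QP_nondeg d F).1 x hx
  have h1 := hT F (Fin d ⊕ Fin d → F) (Cfsg.Agent.H49.QP d F) hnd m
  have h2 := hF F (Fin d ⊕ Fin d → F) (Cfsg.Agent.H49.QP d F) m
  have hNP : NP F d m = Nat.card {W : Submodule F (Fin d ⊕ Fin d → F) //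
      Module.finrank F ↥W = m ∧ ∀ w ∈ W, (Cfsg.Agent.H49.QP d F) w = 0} := rfl
  rw [hNP, ← h2, h1]
  apply Finset.prod_congr rfl
  intro j hj
  rw [Finset.mem_range] at hj
  have h3 := hZ F d (by omega)
  have hfr : Module.finrank F (Fin d ⊕ Fin d → F) = 2 * d := Cfsg.Agent.H49.finrank_plus d F
  rw [hfr]
  exact cardP_factor _ d j _ Fintype.card_pos (by omega) h3

example : Cfsg.Agent.H14.Cq.StTuples.{u, u} → Cfsg.Agent.H14.Cq.StFib.{u, u} →
    Cfsg.Agent.H14.Cq.StZPlus.{u} → Cfsg.Agent.H14.Cq.StCardP.{u} :=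
  Cfsg.Agent.H38.Cq.cardP

end Cfsg.Agent.H38.Cq

#print axioms Cfsg.Agent.H38.Cq.cardP
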