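import Mathlib
import Cfsg.Agent.H38.QdLemmas
import Cfsg.Agent.H38.SL2Plane
import Cfsg.Agent.H38.QdNat2
import Cfsg.Agent.H29.ZJ

/-!
# `Qd(p)` is not `p`-stable (`p` odd)
-/

set_option autoImplicit false
set_option linter.unusedSectionVars false
set_option linter.unusedVariables false

namespace Cfsg.Agent.H38

open Matrix Cfsg.Agent.H51 Cfsg.Agent.H7

open scoped MatrixGroups commutatorElement

section NotStable

variable {X : Type*} [Group X] {p : ℕ} [Fact p.Prime]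

theorem qd_eq_of_vec_eq (π : X →* affSub (ZMod p)) (hπi : Function.Injective π) {v v' : X}
    (hv : v ∈ (qdRho π).ker) (hv' : v' ∈ (qdRho π).ker) (h : qdVec π v = qdVec π v') : v = v' := by
  have h1 : v * v'⁻¹ ∈ π.ker := by
    rw [qd_mem_ker_iff]
    refine ⟨mul_mem hv (inv_mem hv'), ?_⟩
    rw [qdVec_mul_of_mem_ker π hv, qdVec_inv_of_mem_ker π hv', h]
    simp
  have h2 : v * v'⁻¹ = 1 := by
    rw [MonoidHom.mem_ker] at h1
    exact hπi (h1.trans (map_one π).symm)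
  exact mul_inv_eq_one.mp h2

/-- In (a copy of) `Qd(p)`, an upper unipotent element acts quadratically on the translation
subgroup. -/
theorem qd_upper_quadratic (π : X →* affSub (ZMod p)) (hπi : Function.Injective π) {a : X}
    (ha : qdRho π a = slUpper 1) :
    ⁅⁅(qdRho π).ker, Subgroup.zpowers a⁆, Subgroup.zpowers a⁆ = ⊥ := by
  have hZ : ∀ b ∈ Subgroup.zpowers a, ∃ x, qdRho π b = slUpper x := by
    have hle : Subgroup.zpowers a ≤ (slUnip (ZMod p)).comap (qdRho π) := by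
      rw [Subgroup.zpowers_le, Subgroup.mem_comap, ha]
      exact slUpper_mem 1
    intro b hb
    exact ⟨_, eq_slUpper_of_mem_slUnip (hle hb)⟩
  rw [Subgroup.commutator_eq_bot_iff_le_centralizer, Subgroup.commutator_le]
  intro v hv b hb
  rw [Subgroup.mem_centralizer_iff]
  intro c hc
  obtain ⟨x, hx⟩ := hZ b hb
  obtain ⟨x', hx'⟩ := hZ c hc
  have hbv : b * v⁻¹ * b⁻¹ ∈ (qdRho π).ker :=
    (MonoidHom.normal_ker _).conj_mem _ (inv_mem hv) b
  have hcomm : ⁅v, b⁆ = v * (b * v⁻¹ * b⁻¹) := by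
    rw [commutatorElement_def]; group
  have hu : ⁅v, b⁆ ∈ (qdRho π).ker := by
    rw [hcomm]; exact mul_mem hv hbv
  have hvec : qdVec π ⁅v, b⁆ 1 = 0 := by
    rw [hcomm, qdVec_mul_of_mem_ker π hv, qdVec_conj_upper π x hx (inv_mem hv),
      qdVec_inv_of_mem_ker π hv]
    simp
  have hcu : c * ⁅v, b⁆ * c⁻¹ = ⁅v, b⁆ := by
    apply qd_eq_of_vec_eq π hπi ((MonoidHom.normal_ker _).conj_mem _ hu c) hu
    rw [qdVec_conj_upper π x' hx' hu, hvec]
    ext i
    fin_cases i <;> simp [hvec]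
  calc c * ⁅v, b⁆ = c * ⁅v, b⁆ * c⁻¹ * c := by group
    _ = ⁅v, b⁆ * c := by rw [hcu]

/-- A group isomorphic to `Qd(p)`, `p` odd, is not `p`-stable (in the internal form `QStab`). -/
theorem not_qstab_of_qd [Finite X] (hp2 : p ≠ 2) (π : X →* affSub (ZMod p))
    (hπs : Function.Surjective π) (hπi : Function.Injective π) :
    ¬ Cfsg.Agent.H29.QStab p X := by
  intro hst
  have hkerbot : π.ker = ⊥ := (MonoidHom.ker_eq_bot_iff π).mpr hπi
  have hVp : IsPGroup p (qdRho π).ker :=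
    qd_ker_rho_isPGroup π (by rw [hkerbot]; exact IsPGroup.of_bot)
  obtain ⟨K, hKn, hCK, hKq, hKa⟩ := hst (qdRho π).ker (MonoidHom.normal_ker _) hVp
  obtain ⟨a, ha, -, -⟩ := exists_qd_preimage hπs (slUpper (1 : ZMod p))
  obtain ⟨s, hs, -, -⟩ := exists_qd_preimage hπs
    (slUpper (1 : ZMod p) * (slLower (1 : ZMod p))⁻¹ * slUpper 1)
  have haK : a ∈ K := hKa a (qd_upper_quadratic π hπi ha)
  have hsaK : s * a * s⁻¹ ∈ K := hKn.conj_mem a haK s
  obtain ⟨z, hz⟩ : ∃ z : X, z = (a * (s * a * s⁻¹) * a) * (a * (s * a * s⁻¹) * a) := ⟨_, rfl⟩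
  have hzK : z ∈ K := by
    rw [hz]
    exact mul_mem (mul_mem (mul_mem haK hsaK) haK) (mul_mem (mul_mem haK hsaK) haK)
  have hρz : qdRho π z = slNegOne := by
    have h1 : qdRho π (s * a * s⁻¹) = (slLower (1 : ZMod p))⁻¹ := by
      rw [map_mul, map_mul, map_inv, hs, ha, mul_inv_eq_iff_eq_mul, slLower_inv]
      apply sl2_ext_entries <;> simp only [sl2z_mul_apply] <;> simp [slLower, slUpper]
    rw [hz, map_mul, map_mul, map_mul, h1, ha]
    exact slWeyl_sq
  obtain ⟨j, hj⟩ := hKq z hzK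
  have hodd : Odd (p ^ j) := Odd.pow ((Fact.out : p.Prime).odd_of_ne_two hp2)
  have hρy : qdRho π (z ^ p ^ j) = slNegOne := by
    rw [map_pow, hρz]
    exact slNegOne_pow_odd hodd
  obtain ⟨v, hv, hvec⟩ := exists_qdVec_eq hπs ![1, 0]
  have hfix : z ^ p ^ j * v * (z ^ p ^ j)⁻¹ = v := by
    have := (Subgroup.mem_centralizer_iff.mp hj) v hv
    rw [← this]
    group
  have hvk := qd_fixed_mem_ker π hp2 hρy hv hfix
  rw [qd_mem_ker_iff] at hvk
  have h0 := congrFun hvk.2 0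
  rw [hvec] at h0
  simp at h0

/-- A group isomorphic to `Qd(p)`, `p` odd, is not `p`-stable (normalizer form). -/
theorem not_isNormalizerPStable_of_equiv_qd [Finite X] (hp2 : p ≠ 2) (e : X ≃* ↥(Cfsg.qd p)) :
    ¬ Cfsg.IsNormalizerPStable p X := by
  intro hst
  let e' : X ≃* ↥(affSub (ZMod p)) := e.trans (MulEquiv.subgroupCongr (qd_eq p))
  exact not_qstab_of_qd hp2 e'.toMonoidHom e'.surjective e'.injective
    (Cfsg.Agent.H29.qstab_of_isNormalizerPStable hst)

end NotStable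

end Cfsg.Agent.H38
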