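import Mathlib
import Cfsg.Agent.H38.QdStable
import Cfsg.Agent.H38.QdNotStable
import Cfsg.Agent.H38.QdNat3
import Cfsg.Agent.H89.GroupStable
import Cfsg.Agent.H87.Syl
import Cfsg.Agent.H39.Cores

/-!
# `Qd(p)`-witnesses

A *witness* is a configuration `Q₁ ⊴ Q₀ ≤ Q̂` of `p`-subgroups of a group `X`, a subgroup `Y`
normalizing all three, an element `g ∈ Y` acting quadratically on `Q₀/Q₁` and an element `z` of the
normal closure of `g` in `Y` inverting `Q₀/Q₁ ≠ 1`.  For `p` odd a finite group with a witness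
involves `Qd(p)` (`QdWit.involves`), a group involving `Qd(p)` has one (`exists_qdWit_of_involves`),
the subgroup `Q̂` can be taken `p`-centric (`QdWit.exists_centric`), and witnesses are transported
along any injective homomorphism of `Q̂` realizing the conjugations by `Y` (`QdWit.transfer`).
-/

set_option autoImplicit false
set_option linter.unusedSectionVars false
set_option linter.unusedVariables false

namespace Cfsg.Agent.H38

open Subgroup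

universe u

/-- A `Qd(p)`-witness in the group `X`. -/
structure QdWit (p : ℕ) {X : Type*} [Group X] (Qh Q0 Q1 Y : Subgroup X) (g z : X) : Prop where
  le10 : Q1 ≤ Q0
  le0 : Q0 ≤ Qh
  pg : IsPGroup p Q0
  ne : ∃ q ∈ Q0, q ∉ Q1
  nh : ∀ y ∈ Y, ∀ x ∈ Qh, y * x * y⁻¹ ∈ Qh
  n0 : ∀ y ∈ Y, ∀ x ∈ Q0, y * x * y⁻¹ ∈ Q0
  n1 : ∀ y ∈ Y, ∀ x ∈ Q1, y * x * y⁻¹ ∈ Q1
  n01 : ∀ q ∈ Q0, ∀ x ∈ Q1, q * x * q⁻¹ ∈ Q1
  gY : g ∈ Y
  zcl : z ∈ Subgroup.closure {w | ∃ y ∈ Y, w = y * g * y⁻¹}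
  quad : ∀ a ∈ Q0, g * (a⁻¹ * (g * a * g⁻¹)) * g⁻¹ * (a⁻¹ * (g * a * g⁻¹))⁻¹ ∈ Q1
  inv : ∀ a ∈ Q0, z * a * z⁻¹ * a ∈ Q1

section basic

variable {p : ℕ} {X : Type*} [Group X] {Qh Q0 Q1 Y : Subgroup X} {g z : X}

theorem QdWit.closure_le (h : QdWit p Qh Q0 Q1 Y g z) :
    Subgroup.closure {w | ∃ y ∈ Y, w = y * g * y⁻¹} ≤ Y := by
  rw [Subgroup.closure_le]
  rintro _ ⟨y, hy, rfl⟩
  exact Y.mul_mem (Y.mul_mem hy h.gY) (Y.inv_mem hy)

theorem QdWit.zY (h : QdWit p Qh Q0 Q1 Y g z) : z ∈ Y := h.closure_le h.zcl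

/-- One may always take `Q̂ = Q₀`. -/
theorem QdWit.shrink (h : QdWit p Qh Q0 Q1 Y g z) : QdWit p Q0 Q0 Q1 Y g z :=
  { h with le0 := le_rfl, nh := h.n0 }

end basic

section transfer

variable {p : ℕ} {X₁ X₂ : Type*} [Group X₁] [Group X₂] {Qh Q0 Q1 Y : Subgroup X₁} {g z : X₁}

/-- Transport of a witness along an injective homomorphism `e` of `Q̂` into another group in which
every conjugation by an element of `Y` on `Q̂` is realized. -/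
theorem QdWit.transfer' (h : QdWit p Qh Q0 Q1 Y g z) (e : ↥Qh →* X₂) (he : Function.Injective e)
    (M : Subgroup X₂)
    (hreal : ∀ y (hy : y ∈ Y), ∃ n ∈ M, ∀ x : ↥Qh,
      e ⟨y * x * y⁻¹, h.nh y hy x x.2⟩ = n * e x * n⁻¹) :
    ∃ (Y₂ : Subgroup X₂) (g₂ z₂ : X₂), Y₂ ≤ M ∧
      QdWit p e.range ((Q0.subgroupOf Qh).map e) ((Q1.subgroupOf Qh).map e) Y₂ g₂ z₂ := by
  classical
  let Rel : X₁ → X₂ → Prop := fun y n => y ∈ Y ∧ n ∈ M ∧
    ∀ (x : ↥Qh) (hx : y * x * y⁻¹ ∈ Qh), e ⟨y * x * y⁻¹, hx⟩ = n * e x * n⁻¹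
  have rel_one : Rel 1 1 := by
    refine ⟨Y.one_mem, M.one_mem, fun x hx => ?_⟩
    have e1 : (⟨1 * (x : X₁) * 1⁻¹, hx⟩ : ↥Qh) = x := Subtype.ext (by simp)
    rw [e1]; simp
  have rel_mul : ∀ {y₁ y₂ : X₁} {n₁ n₂ : X₂}, Rel y₁ n₁ → Rel y₂ n₂ → Rel (y₁ * y₂) (n₁ * n₂) := by
    rintro y₁ y₂ n₁ n₂ ⟨hy₁, hm₁, h₁⟩ ⟨hy₂, hm₂, h₂⟩
    refine ⟨Y.mul_mem hy₁ hy₂, M.mul_mem hm₁ hm₂, fun x hx => ?_⟩
    have hx2 : y₂ * (x : X₁) * y₂⁻¹ ∈ Qh := h.nh y₂ hy₂ x x.2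
    have hx1 : y₁ * (y₂ * (x : X₁) * y₂⁻¹) * y₁⁻¹ ∈ Qh := h.nh y₁ hy₁ _ hx2
    have e1 : (⟨y₁ * y₂ * (x : X₁) * (y₁ * y₂)⁻¹, hx⟩ : ↥Qh) =
        ⟨y₁ * ((⟨y₂ * (x : X₁) * y₂⁻¹, hx2⟩ : ↥Qh) : X₁) * y₁⁻¹, hx1⟩ :=
      Subtype.ext (by show y₁ * y₂ * (x : X₁) * (y₁ * y₂)⁻¹ = y₁ * (y₂ * (x : X₁) * y₂⁻¹) * y₁⁻¹; group)
    rw [e1, h₁ ⟨_, hx2⟩ hx1, h₂ x hx2]
    group
  have rel_inv : ∀ {y : X₁} {n : X₂}, Rel y n → Rel y⁻¹ n⁻¹ := by
    rintro y n ⟨hy, hm, h₁⟩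
    refine ⟨Y.inv_mem hy, M.inv_mem hm, fun x hx => ?_⟩
    have e0 : y * (y⁻¹ * (x : X₁) * y⁻¹⁻¹) * y⁻¹ = x := by group
    have hx' : y * ((⟨y⁻¹ * (x : X₁) * y⁻¹⁻¹, hx⟩ : ↥Qh) : X₁) * y⁻¹ ∈ Qh := by
      show y * (y⁻¹ * (x : X₁) * y⁻¹⁻¹) * y⁻¹ ∈ Qh
      rw [e0]; exact x.2
    have h2 := h₁ ⟨_, hx⟩ hx'
    have e1 : (⟨y * ((⟨y⁻¹ * (x : X₁) * y⁻¹⁻¹, hx⟩ : ↥Qh) : X₁) * y⁻¹, hx'⟩ : ↥Qh) = x :=
      Subtype.ext e0
    rw [e1] at h2
    rw [h2]; group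
  let Y₂ : Subgroup X₂ :=
    { carrier := {n | ∃ y, Rel y n}
      mul_mem' := by
        rintro a b ⟨y₁, h₁⟩ ⟨y₂, h₂⟩
        exact ⟨_, rel_mul h₁ h₂⟩
      one_mem' := ⟨1, rel_one⟩
      inv_mem' := by
        rintro a ⟨y, h₁⟩
        exact ⟨_, rel_inv h₁⟩ }
  have hrel : ∀ y ∈ Y, ∃ n, Rel y n := fun y hy => by
    obtain ⟨n, hnM, hn⟩ := hreal y hy
    exact ⟨n, hy, hnM, fun x hx => hn x⟩
  obtain ⟨g₂, hg₂⟩ := hrel g h.gY
  have hz : ∃ z₂ ∈ Subgroup.closure {w | ∃ n ∈ Y₂, w = n * g₂ * n⁻¹}, Rel z z₂ := by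
    refine Subgroup.closure_induction
      (p := fun w _ => ∃ z₂ ∈ Subgroup.closure {w | ∃ n ∈ Y₂, w = n * g₂ * n⁻¹}, Rel w z₂)
      ?_ ?_ ?_ ?_ h.zcl
    · rintro w ⟨y, hy, rfl⟩
      obtain ⟨n, hn⟩ := hrel y hy
      exact ⟨n * g₂ * n⁻¹, Subgroup.subset_closure ⟨n, ⟨y, hn⟩, rfl⟩,
        rel_mul (rel_mul hn hg₂) (rel_inv hn)⟩
    · exact ⟨1, Subgroup.one_mem _, rel_one⟩
    · rintro a b _ _ ⟨a₂, ha₂, hra⟩ ⟨b₂, hb₂, hrb⟩
      exact ⟨a₂ * b₂, Subgroup.mul_mem _ ha₂ hb₂, rel_mul hra hrb⟩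
    · rintro a _ ⟨a₂, ha₂, hra⟩
      exact ⟨a₂⁻¹, Subgroup.inv_mem _ ha₂, rel_inv hra⟩
  obtain ⟨z₂, hz₂cl, hz₂⟩ := hz
  refine ⟨Y₂, g₂, z₂, ?_, ?_⟩
  · rintro n ⟨y, -, hnM, -⟩
    exact hnM
  refine
    { le10 := Subgroup.map_mono (fun x hx => Subgroup.mem_subgroupOf.2
        (h.le10 (Subgroup.mem_subgroupOf.1 hx)))
      le0 := Subgroup.map_le_range e _
      pg := (h.pg.comap_subtype).map e
      ne := ?_
      nh := ?_
      n0 := ?_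
      n1 := ?_
      n01 := ?_
      gY := ⟨g, hg₂⟩
      zcl := hz₂cl
      quad := ?_
      inv := ?_ }
  · obtain ⟨q, hq0, hq1⟩ := h.ne
    refine ⟨e ⟨q, h.le0 hq0⟩, ⟨⟨q, h.le0 hq0⟩, Subgroup.mem_subgroupOf.2 hq0, rfl⟩, ?_⟩
    rintro ⟨x, hx, hxe⟩
    have hxq : x = ⟨q, h.le0 hq0⟩ := he hxe
    rw [hxq] at hx
    exact hq1 (Subgroup.mem_subgroupOf.1 hx)
  · rintro n ⟨y, hy, -, hn⟩ _ ⟨x, rfl⟩
    exact ⟨⟨y * x * y⁻¹, h.nh y hy x x.2⟩, hn x _⟩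
  · rintro n ⟨y, hy, -, hn⟩ _ ⟨x, hx, rfl⟩
    exact ⟨⟨y * x * y⁻¹, h.nh y hy x x.2⟩,
      Subgroup.mem_subgroupOf.2 (h.n0 y hy x (Subgroup.mem_subgroupOf.1 hx)), hn x _⟩
  · rintro n ⟨y, hy, -, hn⟩ _ ⟨x, hx, rfl⟩
    exact ⟨⟨y * x * y⁻¹, h.nh y hy x x.2⟩,
      Subgroup.mem_subgroupOf.2 (h.n1 y hy x (Subgroup.mem_subgroupOf.1 hx)), hn x _⟩
  · rintro _ ⟨q, hq, rfl⟩ _ ⟨x, hx, rfl⟩
    refine ⟨q * x * q⁻¹, Subgroup.mem_subgroupOf.2 ?_, by simp⟩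
    simpa using h.n01 q (Subgroup.mem_subgroupOf.1 hq) x (Subgroup.mem_subgroupOf.1 hx)
  · rintro _ ⟨a, ha, rfl⟩
    have ha0 : (a : X₁) ∈ Q0 := Subgroup.mem_subgroupOf.1 ha
    have hb : g * (a : X₁) * g⁻¹ ∈ Qh := h.nh g h.gY a a.2
    have eb := hg₂.2.2 a hb
    have hc : g * ((a⁻¹ * ⟨g * (a : X₁) * g⁻¹, hb⟩ : ↥Qh) : X₁) * g⁻¹ ∈ Qh :=
      h.nh g h.gY _ (a⁻¹ * ⟨g * (a : X₁) * g⁻¹, hb⟩ : ↥Qh).2
    have ed := hg₂.2.2 (a⁻¹ * ⟨g * (a : X₁) * g⁻¹, hb⟩) hc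
    refine ⟨⟨_, hc⟩ * (a⁻¹ * ⟨g * (a : X₁) * g⁻¹, hb⟩)⁻¹, Subgroup.mem_subgroupOf.2 ?_, ?_⟩
    · have := h.quad a ha0
      simpa using this
    · rw [map_mul, map_inv, ed, map_mul, map_inv, eb]
  · rintro _ ⟨a, ha, rfl⟩
    have ha0 : (a : X₁) ∈ Q0 := Subgroup.mem_subgroupOf.1 ha
    have hb : z * (a : X₁) * z⁻¹ ∈ Qh := h.nh z h.zY a a.2
    have eb := hz₂.2.2 a hb
    refine ⟨⟨_, hb⟩ * a, Subgroup.mem_subgroupOf.2 ?_, ?_⟩
    · have := h.inv a ha0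
      simpa using this
    · rw [map_mul, eb]

theorem QdWit.transfer (h : QdWit p Qh Q0 Q1 Y g z) (e : ↥Qh →* X₂) (he : Function.Injective e)
    (hreal : ∀ y (hy : y ∈ Y), ∃ n : X₂, ∀ x : ↥Qh,
      e ⟨y * x * y⁻¹, h.nh y hy x x.2⟩ = n * e x * n⁻¹) :
    ∃ (Y₂ : Subgroup X₂) (g₂ z₂ : X₂),
      QdWit p e.range ((Q0.subgroupOf Qh).map e) ((Q1.subgroupOf Qh).map e) Y₂ g₂ z₂ := by
  obtain ⟨Y₂, g₂, z₂, -, hw⟩ := h.transfer' e he ⊤ (fun y hy => by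
    obtain ⟨n, hn⟩ := hreal y hy
    exact ⟨n, Subgroup.mem_top n, hn⟩)
  exact ⟨Y₂, g₂, z₂, hw⟩

/-- Conjugating a witness. -/
theorem QdWit.conj {X : Type*} [Group X] {Qh Q0 Q1 Y : Subgroup X} {g z : X}
    (h : QdWit p Qh Q0 Q1 Y g z) (k : X) :
    ∃ (Q0' Q1' Y' : Subgroup X) (g' z' : X),
      QdWit p (Qh.map (MulAut.conj k).toMonoidHom) Q0' Q1' Y' g' z' := by
  obtain ⟨Y₂, g₂, z₂, hw⟩ := h.transfer (Cfsg.conjHom Qh k)
    (by
      intro a b hab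
      have h1 : k * (a : X) * k⁻¹ = k * (b : X) * k⁻¹ := hab
      exact Subtype.ext (mul_left_cancel (mul_right_cancel h1)))
    (fun y hy => ⟨k * y * k⁻¹, fun x => by
      show k * (y * (x : X) * y⁻¹) * k⁻¹ = k * y * k⁻¹ * (k * (x : X) * k⁻¹) * (k * y * k⁻¹)⁻¹
      group⟩)
  rw [Cfsg.Agent.H87.conjHom_range] at hw
  exact ⟨_, _, _, _, _, hw⟩

end transfer

section involves

variable {p : ℕ} [Fact p.Prime]

theorem le_normalizer_of_conj {X : Type*} [Group X] {H K : Subgroup X}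
    (hK : ∀ k ∈ K, ∀ x ∈ H, k * x * k⁻¹ ∈ H) : K ≤ Subgroup.normalizer (H : Set X) := by
  intro k hk
  rw [Subgroup.mem_normalizer_iff]
  intro x
  constructor
  · exact hK k hk x
  · intro hx
    have := hK k⁻¹ (K.inv_mem hk) _ hx
    have e : k⁻¹ * (k * x * k⁻¹) * k⁻¹⁻¹ = x := by group
    rwa [e] at this

/-- **A witness forces `Qd(p)`** (`p` odd): the section `(Q₀Y)/Q₁` is not `p`-stable. -/
theorem QdWit.involves (hp2 : p ≠ 2) {X : Type u} [Group X] [Finite X]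
    {Qh Q0 Q1 Y : Subgroup X} {g z : X} (h : QdWit p Qh Q0 Q1 Y g z) :
    Cfsg.Involves ↥(Cfsg.qd p) X := by
  classical
  by_contra hfree
  obtain ⟨K, hK⟩ : ∃ K : Subgroup X, K = Q0 ⊔ Y := ⟨_, rfl⟩
  have hQ0K : Q0 ≤ K := hK ▸ le_sup_left
  have hYK : Y ≤ K := hK ▸ le_sup_right
  have hKn1 : K ≤ Subgroup.normalizer (Q1 : Set X) := by
    rw [hK]
    exact sup_le (le_normalizer_of_conj h.n01) (le_normalizer_of_conj h.n1)
  have hR : (Q1.subgroupOf K).Normal :=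
    (Subgroup.normal_subgroupOf_iff_le_normalizer (h.le10.trans hQ0K)).2 hKn1
  have hfreeΓ : ¬ Cfsg.Involves ↥(Cfsg.qd p) (↥K ⧸ Q1.subgroupOf K) :=
    fun hh => hfree (involves_of_section K Q1 hh)
  have hst := isNormalizerPStable_of_not_involves_qd hp2 hfreeΓ
  obtain ⟨f, hf⟩ : ∃ f : ↥K →* ↥K ⧸ Q1.subgroupOf K, f = QuotientGroup.mk' (Q1.subgroupOf K) :=
    ⟨_, rfl⟩
  have hf1 : ∀ (k : ↥K), (k : X) ∈ Q1 → f k = 1 := fun k hk => by
    rw [hf]; exact (QuotientGroup.eq_one_iff k).2 (Subgroup.mem_subgroupOf.2 hk)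
  have hf1' : ∀ (k : ↥K), f k = 1 → (k : X) ∈ Q1 := fun k hk => by
    rw [hf] at hk; exact Subgroup.mem_subgroupOf.1 ((QuotientGroup.eq_one_iff k).1 hk)
  obtain ⟨Pb, hPb⟩ : ∃ Pb : Subgroup (↥K ⧸ Q1.subgroupOf K), Pb = (Q0.subgroupOf K).map f :=
    ⟨_, rfl⟩
  have hPbmem : ∀ a, a ∈ Pb ↔ ∃ x : ↥K, (x : X) ∈ Q0 ∧ f x = a := by
    intro a
    rw [hPb]
    constructor
    · rintro ⟨x, hx, rfl⟩
      exact ⟨x, Subgroup.mem_subgroupOf.1 hx, rfl⟩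
    · rintro ⟨x, hx, rfl⟩
      exact ⟨x, Subgroup.mem_subgroupOf.2 hx, rfl⟩
  have hPbp : IsPGroup p Pb := by
    rw [hPb]; exact (h.pg.comap_subtype).map f
  have hnorm : ∀ (k : ↥K), (k : X) ∈ Y → f k ∈ Subgroup.normalizer (Pb : Set _) := by
    intro k hk
    rw [Subgroup.mem_normalizer_iff]
    intro a
    rw [hPbmem, hPbmem]
    constructor
    · rintro ⟨x, hx, rfl⟩
      refine ⟨k * x * k⁻¹, ?_, by simp⟩
      simpa using h.n0 k hk x hx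
    · rintro ⟨x, hx, hxe⟩
      refine ⟨k⁻¹ * x * k, ?_, ?_⟩
      · have := h.n0 (k : X)⁻¹ (Y.inv_mem hk) x hx
        simpa using this
      · rw [map_mul, map_mul, map_inv, hxe]; group
  have hgK : g ∈ K := hYK h.gY
  have hgn : f ⟨g, hgK⟩ ∈ Subgroup.normalizer (Pb : Set _) := hnorm ⟨g, hgK⟩ h.gY
  have hquad : ⁅⁅Pb, Subgroup.zpowers (f ⟨g, hgK⟩)⁆, Subgroup.zpowers (f ⟨g, hgK⟩)⁆ = ⊥ := by
    rw [← Cfsg.Agent.H89.quadratic_normalizerMonoidHom_iff Pb _ hgn]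
    apply Cfsg.Agent.H89.quadratic_of_fix
    rintro ⟨a, ha⟩
    obtain ⟨x, hx, rfl⟩ := (hPbmem a).1 ha
    apply Subtype.ext
    show f ⟨g, hgK⟩ * ((f x)⁻¹ * (f ⟨g, hgK⟩ * f x * (f ⟨g, hgK⟩)⁻¹)) * (f ⟨g, hgK⟩)⁻¹ =
      (f x)⁻¹ * (f ⟨g, hgK⟩ * f x * (f ⟨g, hgK⟩)⁻¹)
    have hE := h.quad x hx
    have h1 : f (⟨g, hgK⟩ * (x⁻¹ * (⟨g, hgK⟩ * x * ⟨g, hgK⟩⁻¹)) * ⟨g, hgK⟩⁻¹ *
        (x⁻¹ * (⟨g, hgK⟩ * x * ⟨g, hgK⟩⁻¹))⁻¹) = 1 :=
      hf1 _ (by simpa using hE)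
    simp only [map_mul, map_inv] at h1
    exact mul_inv_eq_one.1 h1
  have hmem := hst Pb hPbp (f ⟨g, hgK⟩) hgn hquad
  obtain ⟨NΓ, hNΓ⟩ : ∃ NΓ : Subgroup (↥K ⧸ Q1.subgroupOf K),
      NΓ = Subgroup.normalizer (Pb : Set _) := ⟨_, rfl⟩
  subst hNΓ
  have hOn : (Cfsg.pCore p (↥(Subgroup.normalizer (Pb : Set (↥K ⧸ Q1.subgroupOf K))) ⧸
      (Subgroup.centralizer (Pb : Set _)).subgroupOf (Subgroup.normalizer (Pb : Set _)))).Normal :=
    Cfsg.Agent.H39.pCore_normal' p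
  have hOp : IsPGroup p (Cfsg.pCore p (↥(Subgroup.normalizer (Pb : Set (↥K ⧸ Q1.subgroupOf K))) ⧸
      (Subgroup.centralizer (Pb : Set _)).subgroupOf (Subgroup.normalizer (Pb : Set _)))) :=
    Cfsg.Agent.H39.pCore_isPGroup p
  have hD : ∀ w ∈ Subgroup.closure {w | ∃ y ∈ Y, w = y * g * y⁻¹},
      ∃ (hw : w ∈ K) (hn : f ⟨w, hw⟩ ∈ Subgroup.normalizer (Pb : Set _)),
        (QuotientGroup.mk (s := (Subgroup.centralizer (Pb : Set _)).subgroupOf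
          (Subgroup.normalizer (Pb : Set _))) ⟨f ⟨w, hw⟩, hn⟩) ∈
          Cfsg.pCore p (↥(Subgroup.normalizer (Pb : Set (↥K ⧸ Q1.subgroupOf K))) ⧸
            (Subgroup.centralizer (Pb : Set _)).subgroupOf (Subgroup.normalizer (Pb : Set _))) := by
    intro w hw
    refine Subgroup.closure_induction
      (p := fun w _ => ∃ (hw : w ∈ K) (hn : f ⟨w, hw⟩ ∈ Subgroup.normalizer (Pb : Set _)),
        (QuotientGroup.mk (s := (Subgroup.centralizer (Pb : Set _)).subgroupOf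
          (Subgroup.normalizer (Pb : Set _))) ⟨f ⟨w, hw⟩, hn⟩) ∈
          Cfsg.pCore p (↥(Subgroup.normalizer (Pb : Set (↥K ⧸ Q1.subgroupOf K))) ⧸
            (Subgroup.centralizer (Pb : Set _)).subgroupOf (Subgroup.normalizer (Pb : Set _))))
      ?_ ?_ ?_ ?_ hw
    · rintro w ⟨y, hy, rfl⟩
      have hyK : y ∈ K := hYK hy
      have hwK : y * g * y⁻¹ ∈ K := K.mul_mem (K.mul_mem hyK hgK) (K.inv_mem hyK)
      have hyn : f ⟨y, hyK⟩ ∈ Subgroup.normalizer (Pb : Set _) := hnorm ⟨y, hyK⟩ hy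
      have e1 : f ⟨y * g * y⁻¹, hwK⟩ = f ⟨y, hyK⟩ * f ⟨g, hgK⟩ * (f ⟨y, hyK⟩)⁻¹ := by
        rw [← map_inv, ← map_mul, ← map_mul]; rfl
      have hwn : f ⟨y * g * y⁻¹, hwK⟩ ∈ Subgroup.normalizer (Pb : Set _) := by
        rw [e1]; exact Subgroup.mul_mem _ (Subgroup.mul_mem _ hyn hgn) (Subgroup.inv_mem _ hyn)
      refine ⟨hwK, hwn, ?_⟩
      have e2 : (⟨f ⟨y * g * y⁻¹, hwK⟩, hwn⟩ : ↥(Subgroup.normalizer (Pb : Set _))) =
          ⟨f ⟨y, hyK⟩, hyn⟩ * ⟨f ⟨g, hgK⟩, hgn⟩ * ⟨f ⟨y, hyK⟩, hyn⟩⁻¹ := Subtype.ext e1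
      rw [e2, QuotientGroup.mk_mul, QuotientGroup.mk_mul, QuotientGroup.mk_inv]
      exact hOn.conj_mem _ hmem _
    · refine ⟨K.one_mem, ?_, ?_⟩
      · have e1 : f ⟨1, K.one_mem⟩ = 1 := map_one f
        rw [e1]; exact Subgroup.one_mem _
      · have e1 : f ⟨1, K.one_mem⟩ = 1 := map_one f
        have e2 : ∀ hn, (⟨f ⟨1, K.one_mem⟩, hn⟩ : ↥(Subgroup.normalizer (Pb : Set _))) = 1 :=
          fun hn => Subtype.ext e1
        rw [e2]
        exact Subgroup.one_mem _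
    · rintro a b _ _ ⟨haK, han, haO⟩ ⟨hbK, hbn, hbO⟩
      have e1 : f ⟨a * b, K.mul_mem haK hbK⟩ = f ⟨a, haK⟩ * f ⟨b, hbK⟩ := by
        rw [← map_mul]; rfl
      have hn : f ⟨a * b, K.mul_mem haK hbK⟩ ∈ Subgroup.normalizer (Pb : Set _) := by
        rw [e1]; exact Subgroup.mul_mem _ han hbn
      refine ⟨K.mul_mem haK hbK, hn, ?_⟩
      have e2 : (⟨f ⟨a * b, K.mul_mem haK hbK⟩, hn⟩ : ↥(Subgroup.normalizer (Pb : Set _))) =
          ⟨f ⟨a, haK⟩, han⟩ * ⟨f ⟨b, hbK⟩, hbn⟩ := Subtype.ext e1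
      rw [e2, QuotientGroup.mk_mul]
      exact Subgroup.mul_mem _ haO hbO
    · rintro a _ ⟨haK, han, haO⟩
      have e1 : f ⟨a⁻¹, K.inv_mem haK⟩ = (f ⟨a, haK⟩)⁻¹ := by
        rw [← map_inv]; rfl
      have hn : f ⟨a⁻¹, K.inv_mem haK⟩ ∈ Subgroup.normalizer (Pb : Set _) := by
        rw [e1]; exact Subgroup.inv_mem _ han
      refine ⟨K.inv_mem haK, hn, ?_⟩
      have e2 : (⟨f ⟨a⁻¹, K.inv_mem haK⟩, hn⟩ : ↥(Subgroup.normalizer (Pb : Set _))) =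
          ⟨f ⟨a, haK⟩, han⟩⁻¹ := Subtype.ext e1
      rw [e2, QuotientGroup.mk_inv]
      exact Subgroup.inv_mem _ haO
  obtain ⟨hzK, hzn, hzO⟩ := hD z h.zcl
  obtain ⟨zb, hzb⟩ : ∃ zb, zb = f ⟨z, hzK⟩ := ⟨_, rfl⟩
  rw [← hzb] at hzn
  have hzO' : (QuotientGroup.mk (s := (Subgroup.centralizer (Pb : Set _)).subgroupOf
      (Subgroup.normalizer (Pb : Set _))) ⟨zb, hzn⟩) ∈
      Cfsg.pCore p (↥(Subgroup.normalizer (Pb : Set (↥K ⧸ Q1.subgroupOf K))) ⧸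
        (Subgroup.centralizer (Pb : Set _)).subgroupOf (Subgroup.normalizer (Pb : Set _))) := by
    subst hzb; exact hzO
  obtain ⟨k, hk⟩ := hOp ⟨_, hzO'⟩
  have hk1 : (QuotientGroup.mk (s := (Subgroup.centralizer (Pb : Set (↥K ⧸ Q1.subgroupOf K))).subgroupOf
      (Subgroup.normalizer (Pb : Set (↥K ⧸ Q1.subgroupOf K))))
      ((⟨zb, hzn⟩ : ↥(Subgroup.normalizer (Pb : Set (↥K ⧸ Q1.subgroupOf K)))) ^ p ^ k)) = 1 := by
    have h0 := congrArg Subtype.val hk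
    rw [Subgroup.coe_pow, Subgroup.coe_one] at h0
    rw [QuotientGroup.mk_pow]
    exact h0
  rw [QuotientGroup.eq_one_iff, Subgroup.mem_subgroupOf] at hk1
  have hzc : zb ^ p ^ k ∈ Subgroup.centralizer (Pb : Set _) := by simpa using hk1
  have hinv : ∀ a ∈ Pb, zb * a * zb⁻¹ = a⁻¹ := by
    intro a ha
    obtain ⟨x, hx, rfl⟩ := (hPbmem a).1 ha
    have hE := h.inv x hx
    have h1 : f (⟨z, hzK⟩ * x * ⟨z, hzK⟩⁻¹ * x) = 1 := hf1 _ (by simpa using hE)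
    simp only [map_mul, map_inv] at h1
    rw [hzb]
    exact eq_inv_of_mul_eq_one_left h1
  have hodd : Odd (p ^ k) := Odd.pow ((Fact.out : p.Prime).odd_of_ne_two hp2)
  have hsq : ∀ b ∈ Pb, Commute (zb ^ 2) b := by
    intro b hb
    have h1 := hinv b hb
    have h2 := hinv b⁻¹ (Pb.inv_mem hb)
    rw [inv_inv] at h2
    show zb ^ 2 * b = b * zb ^ 2
    calc zb ^ 2 * b = zb * (zb * b * zb⁻¹) * zb := by rw [pow_two]; group
      _ = zb * b⁻¹ * zb := by rw [h1]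
      _ = (zb * b⁻¹ * zb⁻¹) * zb * zb := by group
      _ = b * zb ^ 2 := by rw [h2, pow_two]; group
  have hpow : ∀ a ∈ Pb, zb ^ p ^ k * a * (zb ^ p ^ k)⁻¹ = a⁻¹ := by
    obtain ⟨j, hj⟩ := hodd
    intro a ha
    have hc : Commute ((zb ^ 2) ^ j) a⁻¹ := (hsq a⁻¹ (Pb.inv_mem ha)).pow_left j
    rw [hj, pow_succ, pow_mul]
    calc (zb ^ 2) ^ j * zb * a * ((zb ^ 2) ^ j * zb)⁻¹
        = (zb ^ 2) ^ j * (zb * a * zb⁻¹) * ((zb ^ 2) ^ j)⁻¹ := by group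
      _ = (zb ^ 2) ^ j * a⁻¹ * ((zb ^ 2) ^ j)⁻¹ := by rw [hinv a ha]
      _ = a⁻¹ := by rw [hc.eq]; group
  have hall : ∀ a ∈ Pb, a = 1 := by
    intro a ha
    have h1 := hpow a ha
    have h2 : a * zb ^ p ^ k = zb ^ p ^ k * a := Subgroup.mem_centralizer_iff.1 hzc a ha
    have h3 : a = a⁻¹ := by rw [← h1, ← h2]; group
    have h4 : a ^ 2 = 1 := by
      rw [pow_two]; nth_rewrite 2 [h3]; exact mul_inv_cancel a
    obtain ⟨m, hm⟩ := hPbp ⟨a, ha⟩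
    have hm' : a ^ p ^ m = 1 := by simpa using congrArg Subtype.val hm
    have hcop : Nat.Coprime 2 (p ^ m) :=
      Nat.Coprime.pow_right m ((Nat.coprime_primes Nat.prime_two (Fact.out : p.Prime)).2
        (Ne.symm hp2))
    have hd : orderOf a ∣ Nat.gcd 2 (p ^ m) :=
      Nat.dvd_gcd (orderOf_dvd_of_pow_eq_one h4) (orderOf_dvd_of_pow_eq_one hm')
    rw [hcop.gcd_eq_one, Nat.dvd_one] at hd
    exact orderOf_eq_one_iff.1 hd
  obtain ⟨q, hq0, hq1⟩ := h.ne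
  exact hq1 (hf1' ⟨q, hQ0K hq0⟩ (hall _ ((hPbmem _).2 ⟨⟨q, hQ0K hq0⟩, hq0, rfl⟩)))

end involves

section centric

variable {p : ℕ} [Fact p.Prime] {G : Type*} [Group G]

/-- In a finite group, an element conjugating a subgroup into itself normalizes it. -/
theorem mem_normalizer_of_conj_mem [Finite G] {T : Subgroup G} {n : G}
    (h : ∀ x ∈ T, n * x * n⁻¹ ∈ T) : n ∈ Subgroup.normalizer (T : Set G) := by
  have hle : T.map (MulAut.conj n).toMonoidHom ≤ T := Cfsg.Agent.H87.map_conj_le_iff.2 h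
  have heq : T.map (MulAut.conj n).toMonoidHom = T :=
    Subgroup.eq_of_le_of_card_ge hle (by rw [Cfsg.Agent.H87.card_map_conj])
  rw [Subgroup.mem_normalizer_iff]
  intro x
  constructor
  · exact h x
  · intro hx
    rw [← heq, Cfsg.Agent.H87.mem_map_conj] at hx
    have e : n⁻¹ * (n * x * n⁻¹) * n = x := by group
    rwa [e] at hx

/-- Frattini argument, elementwise: if `T` is a Sylow `p`-subgroup of `C` and `y` normalizes `C`
then `c * y` normalizes `T` for some `c ∈ C`. -/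
theorem exists_mul_mem_normalizer_of_isSylIn [Finite G] {T C : Subgroup G}
    (hT : Cfsg.Agent.H87.IsSylIn p T C) (hTC : T ≤ C) {y : G}
    (hy : y ∈ Subgroup.normalizer (C : Set G)) :
    ∃ c ∈ C, c * y ∈ Subgroup.normalizer (T : Set G) := by
  have hXC : T.map (MulAut.conj y).toMonoidHom ≤ C := by
    rw [Cfsg.Agent.H87.map_conj_le_iff]
    intro x hx
    exact (Subgroup.mem_normalizer_iff.1 hy x).1 (hTC hx)
  have hX : IsPGroup p (T.map (MulAut.conj y).toMonoidHom) := (hT.isPGroup hTC).map _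
  obtain ⟨m, hmC, hm⟩ := hT.exists_conj_le hXC hX
  refine ⟨m, hmC, mem_normalizer_of_conj_mem (fun x hx => ?_)⟩
  have h1 := hm (y * x * y⁻¹) (Cfsg.Agent.H87.conj_mem_map_conj hx)
  have e : m * y * x * (m * y)⁻¹ = m * (y * x * y⁻¹) * m⁻¹ := by group
  rw [e]; exact h1

/-- **Centric enlargement.** A witness with `Q̂ = Q₀` can be replaced by one (same `Q₀`, `Q₁`) whose
`Q̂` is a `p`-subgroup containing every `p`-subgroup of its centralizer. -/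
theorem QdWit.exists_centric [Finite G] {Q0 Q1 Y : Subgroup G} {g z : G}
    (h : QdWit p Q0 Q0 Q1 Y g z) :
    ∃ (Qh Y' : Subgroup G) (g' z' : G), QdWit p Qh Q0 Q1 Y' g' z' ∧ IsPGroup p Qh ∧
      ∀ D : Subgroup G, IsPGroup p D → D ≤ Subgroup.centralizer (Qh : Set G) → D ≤ Qh := by
  classical
  obtain ⟨C, hC⟩ : ∃ C : Subgroup G, C = Subgroup.centralizer (Q0 : Set G) := ⟨_, rfl⟩
  obtain ⟨T₀⟩ : Nonempty (Sylow p C) := inferInstance
  obtain ⟨T, hT⟩ : ∃ T : Subgroup G, T = (T₀ : Subgroup C).map C.subtype := ⟨_, rfl⟩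
  have hTC : T ≤ C := by rw [hT]; exact Subgroup.map_subtype_le _
  have hTp : IsPGroup p T := by rw [hT]; exact T₀.isPGroup'.map _
  have hsyl : Cfsg.Agent.H87.IsSylIn p T C :=
    ⟨T₀, by rw [hT]; exact (Subgroup.comap_map_eq_self_of_injective C.subtype_injective _).symm⟩
  have hYN : Y ≤ Subgroup.normalizer (Q0 : Set G) := le_normalizer_of_conj h.n0
  have hNC : Subgroup.normalizer (Q0 : Set G) ≤ Subgroup.normalizer (C : Set G) := by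
    rw [hC]; exact Cfsg.Agent.H87.normalizer_le_normalizer_centralizer Q0
  have hcomm : ∀ c ∈ C, ∀ x ∈ Q0, c * x * c⁻¹ = x := by
    intro c hc x hx
    rw [hC] at hc
    have := Subgroup.mem_centralizer_iff.1 hc x hx
    rw [← this]; group
  obtain ⟨Y₂, g₂, z₂, hY₂, hw⟩ := h.transfer' Q0.subtype Q0.subtype_injective
    (Subgroup.normalizer (T : Set G)) (fun y hy => by
      obtain ⟨c, hcC, hc⟩ := exists_mul_mem_normalizer_of_isSylIn hsyl hTC (hNC (hYN hy))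
      refine ⟨c * y, hc, fun x => ?_⟩
      show y * (x : G) * y⁻¹ = c * y * (x : G) * (c * y)⁻¹
      have e : c * y * (x : G) * (c * y)⁻¹ = c * (y * (x : G) * y⁻¹) * c⁻¹ := by group
      rw [e, hcomm c hcC _ (h.n0 y hy x x.2)])
  rw [Subgroup.range_subtype, Subgroup.subgroupOf_map_subtype, Subgroup.subgroupOf_map_subtype,
    inf_idem, inf_of_le_left h.le10] at hw
  have hTN0 : T ≤ Subgroup.normalizer (Q0 : Set G) := by
    refine le_normalizer_of_conj (fun c hc x hx => ?_)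
    rw [hcomm c (hTC hc) x hx]; exact hx
  refine ⟨Q0 ⊔ T, Y₂, g₂, z₂, { hw with le0 := le_sup_left, nh := ?_ }, ?_, ?_⟩
  · intro y hy x hx
    have h1 : (Q0 ⊔ T).map (MulAut.conj y).toMonoidHom ≤ Q0 ⊔ T := by
      rw [Subgroup.map_sup]
      exact sup_le_sup (Cfsg.Agent.H87.map_conj_le_iff.2 (hw.n0 y hy))
        (Cfsg.Agent.H87.map_conj_le_iff.2
          (fun x hx => (Subgroup.mem_normalizer_iff.1 (hY₂ hy) x).1 hx))
    exact Cfsg.Agent.H87.map_conj_le_iff.1 h1 x hx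
  · exact IsPGroup.to_sup_of_normal_left' h.pg hTp hTN0
  · intro D hD hDc
    have hDC : D ≤ C := by
      rw [hC]
      exact hDc.trans (Subgroup.centralizer_le (by
        intro x hx; exact (le_sup_left : Q0 ≤ Q0 ⊔ T) hx))
    have hDT : D ≤ Subgroup.normalizer (T : Set G) :=
      (hDc.trans (Subgroup.centralizer_le (by
        intro x hx; exact (le_sup_right : T ≤ Q0 ⊔ T) hx))).trans
          (Subgroup.centralizer_le_normalizer _)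
    have hDTp : IsPGroup p (D ⊔ T : Subgroup G) := IsPGroup.to_sup_of_normal_right' hD hTp hDT
    have hle : D ⊔ T ≤ C := sup_le hDC hTC
    have hdvd := Cfsg.Agent.H87.card_dvd_of_isPGroup_le hle hDTp
    rw [← (Cfsg.Agent.H87.isSylIn_iff_card hTC).1 hsyl] at hdvd
    have heq : T = D ⊔ T :=
      Subgroup.eq_of_le_of_card_ge le_sup_right (Nat.le_of_dvd Nat.card_pos hdvd)
    exact (le_sup_left.trans heq.ge).trans le_sup_right

/-- The centric property of `exists_centric` is invariant under conjugation. -/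
theorem pcentric_conj {Q : Subgroup G}
    (h : ∀ D : Subgroup G, IsPGroup p D → D ≤ Subgroup.centralizer (Q : Set G) → D ≤ Q) (k : G) :
    ∀ D : Subgroup G, IsPGroup p D →
      D ≤ Subgroup.centralizer ((Q.map (MulAut.conj k).toMonoidHom : Subgroup G) : Set G) →
      D ≤ Q.map (MulAut.conj k).toMonoidHom := by
  intro D hD hDc
  have h1 : D.map (MulAut.conj k⁻¹).toMonoidHom ≤ Subgroup.centralizer (Q : Set G) := by
    rw [Cfsg.Agent.H87.map_conj_le_iff]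
    intro d hd
    have h2 := hDc hd
    rw [Cfsg.Agent.H87.centralizer_map_conj, Cfsg.Agent.H87.mem_map_conj] at h2
    simpa using h2
  have h3 := h _ (hD.map _) h1
  intro d hd
  rw [Cfsg.Agent.H87.mem_map_conj]
  have h4 := h3 (Cfsg.Agent.H87.conj_mem_map_conj (g := k⁻¹) hd)
  simpa using h4

end centric

section existence

open Matrix Cfsg.Agent.H51 Cfsg.Agent.H7

open scoped MatrixGroups Pointwise

variable {p : ℕ} [Fact p.Prime]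

/-- A finite group mapping onto `Qd(p)` (in affine form) has a witness. -/
theorem exists_qdWit_of_surjective (hp2 : p ≠ 2) {X : Type*} [Group X] [Finite X]
    (π : X →* affSub (ZMod p)) (hπ : Function.Surjective π) :
    ∃ (Q0 Q1 Y : Subgroup X) (g z : X), QdWit p Q0 Q0 Q1 Y g z := by
  classical
  obtain ⟨V, hV⟩ : ∃ V : Subgroup X, V = (qdRho π).ker := ⟨_, rfl⟩
  have hVn : V.Normal := by rw [hV]; exact MonoidHom.normal_ker _
  obtain ⟨P₀⟩ : Nonempty (Sylow p V) := inferInstance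
  obtain ⟨Q0, hQ0⟩ : ∃ Q0 : Subgroup X, Q0 = (P₀ : Subgroup V).map V.subtype := ⟨_, rfl⟩
  have hQ0V : Q0 ≤ V := by rw [hQ0]; exact Subgroup.map_subtype_le _
  have hQ0ρ : ∀ v ∈ Q0, v ∈ (qdRho π).ker := fun v hv => hV ▸ hQ0V hv
  have hfr : Subgroup.normalizer (Q0 : Set X) ⊔ V = ⊤ := by
    rw [hQ0]; exact Sylow.normalizer_sup_eq_top P₀
  have hlift : ∀ A : SL(2, ZMod p), ∃ n ∈ Subgroup.normalizer (Q0 : Set X), qdRho π n = A := by
    intro A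
    obtain ⟨x, hx, -, -⟩ := exists_qd_preimage hπ A
    have hx' : x ∈ Subgroup.normalizer (Q0 : Set X) ⊔ V := by rw [hfr]; exact Subgroup.mem_top x
    have hset : ((Subgroup.normalizer (Q0 : Set X) ⊔ V : Subgroup X) : Set X) =
        (Subgroup.normalizer (Q0 : Set X) : Set X) * (V : Set X) := Subgroup.mul_normal _ _
    have hx'' : x ∈ (Subgroup.normalizer (Q0 : Set X) : Set X) * (V : Set X) := by
      rw [← hset]; exact hx'
    obtain ⟨n, hn, v, hv, rfl⟩ := Set.mem_mul.1 hx''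
    refine ⟨n, hn, ?_⟩
    have hv' : qdRho π v = 1 := MonoidHom.mem_ker.1 (hV ▸ hv)
    rw [map_mul, hv', mul_one] at hx
    exact hx
  obtain ⟨a, haN, ha⟩ := hlift (slUpper (1 : ZMod p))
  obtain ⟨s, hsN, hs⟩ := hlift (slUpper (1 : ZMod p) * (slLower (1 : ZMod p))⁻¹ * slUpper 1)
  obtain ⟨z, hz⟩ : ∃ z : X, z = (a * (s * a * s⁻¹) * a) * (a * (s * a * s⁻¹) * a) := ⟨_, rfl⟩
  have hρz : qdRho π z = slNegOne := by
    have h1 : qdRho π (s * a * s⁻¹) = (slLower (1 : ZMod p))⁻¹ := by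
      rw [map_mul, map_mul, map_inv, hs, ha, mul_inv_eq_iff_eq_mul, slLower_inv]
      apply sl2_ext_entries <;> simp only [sl2z_mul_apply] <;> simp [slLower, slUpper]
    rw [hz, map_mul, map_mul, map_mul, h1, ha]
    exact slWeyl_sq
  have hzN : z ∈ Subgroup.normalizer (Q0 : Set X) := by
    have h1 : s * a * s⁻¹ ∈ Subgroup.normalizer (Q0 : Set X) :=
      Subgroup.mul_mem _ (Subgroup.mul_mem _ hsN haN) (Subgroup.inv_mem _ hsN)
    have h2 : a * (s * a * s⁻¹) * a ∈ Subgroup.normalizer (Q0 : Set X) :=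
      Subgroup.mul_mem _ (Subgroup.mul_mem _ haN h1) haN
    rw [hz]; exact Subgroup.mul_mem _ h2 h2
  have hconj : ∀ y ∈ Subgroup.normalizer (Q0 : Set X), ∀ x ∈ Q0, y * x * y⁻¹ ∈ Q0 :=
    fun y hy x hx => (Subgroup.mem_normalizer_iff.1 hy x).1 hx
  have hker : ∀ x ∈ π.ker, ∀ y : X, y * x * y⁻¹ ∈ π.ker :=
    fun x hx y => (MonoidHom.normal_ker π).conj_mem x hx y
  have hρker : ∀ x ∈ (qdRho π).ker, ∀ y : X, y * x * y⁻¹ ∈ (qdRho π).ker :=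
    fun x hx y => (MonoidHom.normal_ker _).conj_mem x hx y
  -- `Q0` is not inside `ker π`
  have hne : ∃ q ∈ Q0, q ∉ π.ker := by
    by_contra hcon
    push Not at hcon
    have hle : Q0 ≤ π.ker := hcon
    have hc1 : Nat.card Q0 = Nat.card (P₀ : Subgroup V) := by
      rw [hQ0]; exact Subgroup.card_map_of_injective V.subtype_injective
    have hc2 : Nat.card (P₀ : Subgroup V) = p ^ (Nat.card V).factorization p :=
      P₀.card_eq_multiplicity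
    have hc3 : Nat.card V = p ^ 2 * Nat.card π.ker := by
      rw [hV]; exact card_ker_rho hπ
    have hc4 : Nat.card Q0 ∣ Nat.card π.ker := Subgroup.card_dvd_of_le hle
    have hpos : Nat.card π.ker ≠ 0 := Nat.card_pos.ne'
    have hpp : p.Prime := Fact.out
    have hpos' : p ^ 2 * Nat.card π.ker ≠ 0 := mul_ne_zero (pow_ne_zero _ hpp.ne_zero) hpos
    have h5 : p ^ ((Nat.card π.ker).factorization p + 2) ∣ p ^ 2 * Nat.card π.ker := by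
      rw [pow_add, mul_comm]
      exact mul_dvd_mul dvd_rfl (Nat.ordProj_dvd _ _)
    have h6 : (Nat.card π.ker).factorization p + 2 ≤ (p ^ 2 * Nat.card π.ker).factorization p :=
      (hpp.pow_dvd_iff_le_factorization hpos').1 h5
    have hc5 : p ^ (p ^ 2 * Nat.card π.ker).factorization p ∣ Nat.card π.ker := by
      rw [hc1, hc2, hc3] at hc4; exact hc4
    have h7 : p ^ ((Nat.card π.ker).factorization p + 1) ∣ Nat.card π.ker :=
      dvd_trans (pow_dvd_pow p (by omega)) hc5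
    exact Nat.pow_succ_factorization_not_dvd hpos hpp h7
  refine ⟨Q0, Q0 ⊓ π.ker, Subgroup.normalizer (Q0 : Set X), a, z,
    { le10 := inf_le_left
      le0 := le_rfl
      pg := by rw [hQ0]; exact P₀.isPGroup'.map _
      ne := ?_
      nh := hconj
      n0 := hconj
      n1 := fun y hy x hx => ⟨hconj y hy x hx.1, hker x hx.2 y⟩
      n01 := fun q hq x hx =>
        ⟨Q0.mul_mem (Q0.mul_mem hq hx.1) (Q0.inv_mem hq), hker x hx.2 q⟩
      gY := haN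
      zcl := ?_
      quad := ?_
      inv := ?_ }⟩
  · obtain ⟨q, hq, hqk⟩ := hne
    exact ⟨q, hq, fun hq1 => hqk hq1.2⟩
  · have h1 : a ∈ Subgroup.closure {w | ∃ y ∈ Subgroup.normalizer (Q0 : Set X), w = y * a * y⁻¹} :=
      Subgroup.subset_closure ⟨1, Subgroup.one_mem _, by simp⟩
    have h2 : s * a * s⁻¹ ∈
        Subgroup.closure {w | ∃ y ∈ Subgroup.normalizer (Q0 : Set X), w = y * a * y⁻¹} :=
      Subgroup.subset_closure ⟨s, hsN, rfl⟩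
    have h3 := Subgroup.mul_mem _ (Subgroup.mul_mem _ h1 h2) h1
    rw [hz]; exact Subgroup.mul_mem _ h3 h3
  · intro v hv0
    have hv : v ∈ (qdRho π).ker := hQ0ρ v hv0
    have hvi : v⁻¹ ∈ (qdRho π).ker := Subgroup.inv_mem _ hv
    have hav : a * v * a⁻¹ ∈ (qdRho π).ker := hρker v hv a
    obtain ⟨w, hwdef⟩ : ∃ w : X, w = v⁻¹ * (a * v * a⁻¹) := ⟨_, rfl⟩
    have hw : w ∈ (qdRho π).ker := by rw [hwdef]; exact Subgroup.mul_mem _ hvi hav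
    have hw0 : w ∈ Q0 := by
      rw [hwdef]; exact Q0.mul_mem (Q0.inv_mem hv0) (hconj a haN v hv0)
    have haw : a * w * a⁻¹ ∈ (qdRho π).ker := hρker w hw a
    have hw1 : qdVec π w 1 = 0 := by
      rw [hwdef, qdVec_mul_of_mem_ker π hvi, qdVec_conj_upper π 1 ha hv,
        qdVec_inv_of_mem_ker π hv]
      simp
    have hE : qdVec π (a * w * a⁻¹ * w⁻¹) = 0 := by
      rw [qdVec_mul_of_mem_ker π haw, qdVec_inv_of_mem_ker π hw, qdVec_conj_upper π 1 ha hw]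
      ext i
      fin_cases i <;> simp [hw1]
    rw [← hwdef]
    exact ⟨Q0.mul_mem (hconj a haN w hw0) (Q0.inv_mem hw0),
      (qd_mem_ker_iff π _).2 ⟨Subgroup.mul_mem _ haw (Subgroup.inv_mem _ hw), hE⟩⟩
  · intro v hv0
    have hv : v ∈ (qdRho π).ker := hQ0ρ v hv0
    have hzv : z * v * z⁻¹ ∈ (qdRho π).ker := hρker v hv z
    have hE : qdVec π (z * v * z⁻¹ * v) = 0 := by
      rw [qdVec_mul_of_mem_ker π hzv, qdVec_conj_negOne π hρz hv]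
      simp
    exact ⟨Q0.mul_mem (hconj z hzN v hv0) hv0,
      (qd_mem_ker_iff π _).2 ⟨Subgroup.mul_mem _ hzv hv, hE⟩⟩

/-- A finite group involving `Qd(p)` has a witness. -/
theorem exists_qdWit_of_involves (hp2 : p ≠ 2) {G : Type*} [Group G] [Finite G]
    (h : Cfsg.Involves ↥(Cfsg.qd p) G) :
    ∃ (Q0 Q1 Y : Subgroup G) (g z : G), QdWit p Q0 Q0 Q1 Y g z := by
  obtain ⟨K, R, hn, ⟨e⟩⟩ := h
  obtain ⟨π, hπ⟩ : ∃ π : ↥K →* affSub (ZMod p), Function.Surjective π :=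
    ⟨((MulEquiv.subgroupCongr (qd_eq p)).toMonoidHom.comp e.toMonoidHom).comp
        (QuotientGroup.mk' (R.subgroupOf K)),
      ((MulEquiv.subgroupCongr (qd_eq p)).surjective.comp e.surjective).comp
        (QuotientGroup.mk'_surjective _)⟩
  obtain ⟨Q0, Q1, Y, g, z, hw⟩ := exists_qdWit_of_surjective hp2 π hπ
  obtain ⟨Y₂, g₂, z₂, hw₂⟩ := hw.transfer (K.subtype.comp Q0.subtype)
    (K.subtype_injective.comp Q0.subtype_injective) (fun y hy => ⟨(y : G), fun x => by simp⟩)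
  exact ⟨_, _, _, _, _, hw₂.shrink⟩

end existence

end Cfsg.Agent.H38
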