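import Mathlib
import Cfsg.Prelude.Def_FusionReduction
import Cfsg.Agent.H38.QdWit
import Cfsg.Agent.H86.FusGroup
import Cfsg.Agent.H88.NormSat
import Cfsg.Agent.H88.NormModel
import Cfsg.Agent.H89.Normalizer
import Cfsg.Agent.H90.Model

/-!
# `Qd(p)`-freeness of the fusion system of a group versus `Qd(p)`-freeness of the group
-/

set_option autoImplicit false
set_option linter.unusedSectionVars false
set_option linter.unusedVariables false

namespace Cfsg.Agent.H38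

open Cfsg Cfsg.FusionSystem

universe u

variable {G : Type u} [Group G] [Finite G] {p : ℕ} [Fact p.Prime]

/-- A `Qd(p)`-free group has a `Qd(p)`-free fusion system (`p` odd). -/
theorem sectionFree_qd_of_not_involves (hp : p ≠ 2) (P : Sylow p G)
    (hG : ¬ Involves ↥(qd p) G) :
    (groupFusionSystem (P : Subgroup G)).IsSectionFree p ↥(qd p) := by
  intro Q hfn hc N hN L _ ι hL hinv
  obtain ⟨hfin, ⟨hι, hreal⟩, ⟨T, hT⟩, -⟩ := hL
  have hfin' : Finite L := hfin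
  obtain ⟨Q0, Q1, Y, g, z, hw⟩ := exists_qdWit_of_involves hp hinv
  -- conjugate `Q0` into the Sylow subgroup `ι.range`
  obtain ⟨R, hR⟩ := hw.pg.exists_le_sylow
  obtain ⟨k, hk⟩ := MulAction.exists_smul_eq L R T
  have hle : Q0.map (MulAut.conj k).toMonoidHom ≤ ι.range := by
    rw [Cfsg.Agent.H87.map_conj_le_iff]
    intro x hx
    have h1 : k * x * k⁻¹ ∈ ((k • R : Sylow p L) : Subgroup L) := by
      rw [Sylow.coe_subgroup_smul]
      exact ⟨x, hR hx, rfl⟩
    rw [hk, hT] at h1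
    exact h1
  obtain ⟨Q0', Q1', Y', g', z', hw'⟩ := hw.conj k
  -- transfer to `G`
  obtain ⟨σ, hσ⟩ : ∃ σ : ↥ι.range ≃* ↥(normalizerIn (P : Subgroup G) Q),
      σ = (MonoidHom.ofInjective hι).symm := ⟨_, rfl⟩
  have hισ : ∀ w : ↥ι.range, ι (σ w) = (w : L) := by
    intro w
    rw [hσ]
    exact congrArg Subtype.val ((MonoidHom.ofInjective hι).apply_symm_apply w)
  obtain ⟨e₂, he₂⟩ : ∃ e₂ : ↥(Q0.map (MulAut.conj k).toMonoidHom) →* G,
      e₂ = (normalizerIn (P : Subgroup G) Q).subtype.comp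
        (σ.toMonoidHom.comp (Subgroup.inclusion hle)) := ⟨_, rfl⟩
  have he₂i : Function.Injective e₂ := by
    rw [he₂]
    exact (Subgroup.subtype_injective _).comp
      (σ.injective.comp (Subgroup.inclusion_injective hle))
  have he₂N : ∀ x, e₂ x ∈ normalizerIn (P : Subgroup G) Q := by
    intro x; rw [he₂]; exact (σ (Subgroup.inclusion hle x)).2
  have hιe₂ : ∀ x (hx : e₂ x ∈ normalizerIn (P : Subgroup G) Q), ι ⟨e₂ x, hx⟩ = (x : L) := by
    intro x hx
    have h1 : (⟨e₂ x, hx⟩ : ↥(normalizerIn (P : Subgroup G) Q)) =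
        σ (Subgroup.inclusion hle x) := by subst he₂; rfl
    rw [h1, hισ]; rfl
  obtain ⟨Y₂, g₂, z₂, hw₂⟩ := hw'.transfer e₂ he₂i (fun y hy => by
    have hP' : e₂.range ≤ normalizerIn (P : Subgroup G) Q := by
      rintro _ ⟨x, rfl⟩; exact he₂N x
    obtain ⟨a, ha⟩ : ∃ a : ↥e₂.range →* ↥(Q0.map (MulAut.conj k).toMonoidHom),
        ∀ x : ↥e₂.range, ((a x : ↥(Q0.map (MulAut.conj k).toMonoidHom)) : L) =
          ι ⟨x, hP' x.2⟩ :=
      ⟨(ι.comp (Subgroup.inclusion hP')).codRestrict _ (by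
          rintro ⟨_, x₀, rfl⟩
          show ι ⟨e₂ x₀, _⟩ ∈ _
          rw [hιe₂]; exact x₀.2), fun x => rfl⟩
    obtain ⟨c, hc⟩ : ∃ c : ↥(Q0.map (MulAut.conj k).toMonoidHom) →*
        ↥(Q0.map (MulAut.conj k).toMonoidHom),
        ∀ x, ((c x : ↥(Q0.map (MulAut.conj k).toMonoidHom)) : L) = y * (x : L) * y⁻¹ :=
      ⟨((MulAut.conj y).toMonoidHom.comp (Subgroup.subtype _)).codRestrict _
          (fun x => hw'.nh y hy x x.2), fun x => rfl⟩
    have hφ : ∀ x : ↥e₂.range, (e₂.comp (c.comp a)) x ∈ normalizerIn (P : Subgroup G) Q :=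
      fun x => he₂N _
    have hmem : e₂.comp (c.comp a) ∈ N.Hom e₂.range := by
      refine (hreal e₂.range hP' (e₂.comp (c.comp a)) hφ).2 ⟨y, fun x => ?_⟩
      have h1 := hιe₂ (c (a x)) (hφ x)
      rw [hc, ha] at h1
      exact h1
    rw [hN e₂.range] at hmem
    obtain ⟨-, -, n, hn⟩ := hmem.1
    refine ⟨n, fun x => ?_⟩
    have h2 := hn ⟨e₂ x, ⟨x, rfl⟩⟩
    have h3 : a ⟨e₂ x, ⟨x, rfl⟩⟩ = x := Subtype.ext (by rw [ha]; exact hιe₂ x _)
    have h4 : c x = ⟨y * (x : L) * y⁻¹, hw'.nh y hy x x.2⟩ := Subtype.ext (hc x)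
    rw [← h4, ← h2]
    show e₂ (c x) = e₂ (c (a ⟨e₂ x, ⟨x, rfl⟩⟩))
    rw [h3])
  exact hG (hw₂.involves hp)

/-- If the group involves `Qd(p)` then its fusion system is not `Qd(p)`-free (`p` odd). -/
theorem not_sectionFree_qd_of_involves (hp : p ≠ 2) (P : Sylow p G)
    (hG : Involves ↥(qd p) G) :
    ¬ (groupFusionSystem (P : Subgroup G)).IsSectionFree p ↥(qd p) := by
  intro hfree
  obtain ⟨Q0, Q1, Y, g, z, hw⟩ := exists_qdWit_of_involves hp hG
  obtain ⟨Qh, Y₁, g₁, z₁, hw₁, hQhp, hcen⟩ := hw.exists_centric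
  -- conjugate into `P`
  obtain ⟨R, hR⟩ := hQhp.exists_le_sylow
  obtain ⟨k₁, hk₁⟩ := MulAction.exists_smul_eq G R P
  have hle₁ : Qh.map (MulAut.conj k₁).toMonoidHom ≤ P := by
    rw [Cfsg.Agent.H87.map_conj_le_iff]
    intro x hx
    have h1 : k₁ * x * k₁⁻¹ ∈ ((k₁ • R : Sylow p G) : Subgroup G) := by
      rw [Sylow.coe_subgroup_smul]
      exact ⟨x, hR hx, rfl⟩
    rwa [hk₁] at h1
  obtain ⟨k₂, hle₂, hsyl⟩ := Cfsg.Agent.H87.exists_conj_normalizerIn_sylow P _ hle₁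
  rw [← Cfsg.Agent.H87.map_conj_mul] at hle₂ hsyl
  obtain ⟨Q, hQ⟩ : ∃ Q : Subgroup G, Q = Qh.map (MulAut.conj (k₂ * k₁)).toMonoidHom := ⟨_, rfl⟩
  rw [← hQ] at hle₂ hsyl
  obtain ⟨Q0', Q1', Y', g', z', hw'⟩ := hw₁.conj (k₂ * k₁)
  rw [← hQ] at hw'
  have hcen' := pcentric_conj hcen (k₂ * k₁)
  rw [← hQ] at hcen'
  have hS : IsPGroup p (P : Subgroup G) := P.isPGroup'
  -- `Q` is fully normalized
  have hfn : (groupFusionSystem (P : Subgroup G)).IsFullyNormalized Q := by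
    refine ⟨hle₂, fun R hR => ?_⟩
    obtain ⟨-, hRS, g, rfl⟩ := Cfsg.Agent.H87.groupFusionSystem_isConj_iff.1 hR
    have h1 : Nat.card (normalizerIn (P : Subgroup G) Q) =
        p ^ (Nat.card (Subgroup.normalizer (Q : Set G))).factorization p :=
      (Cfsg.Agent.H87.isSylIn_iff_card (Cfsg.Agent.H87.normalizerIn_le_normalizer _ _)).1 hsyl
    have h2 := Cfsg.Agent.H87.card_dvd_of_isPGroup_le
      (Cfsg.Agent.H87.normalizerIn_le_normalizer (P : Subgroup G)
        (Q.map (MulAut.conj g).toMonoidHom)) (hS.to_le inf_le_left)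
    rw [Cfsg.Agent.H87.normalizer_map_conj, Cfsg.Agent.H87.card_map_conj, ← h1] at h2
    exact Nat.le_of_dvd Nat.card_pos h2
  -- `Q` is centric
  have hc : (groupFusionSystem (P : Subgroup G)).IsCentric Q := by
    refine ⟨hle₂, fun R hR => ?_⟩
    obtain ⟨-, hRS, g, rfl⟩ := Cfsg.Agent.H87.groupFusionSystem_isConj_iff.1 hR
    exact pcentric_conj hcen' g _ (hS.to_le inf_le_left) inf_le_right
  have hNsys := Cfsg.Agent.H89.normalizerSystem_isNormalizerSystem
    (groupFusionSystem (P : Subgroup G)) Q hle₂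
  have hFsat : (groupFusionSystem (P : Subgroup G)).IsSaturated p :=
    Cfsg.Agent.H86.groupFusionSystem_saturated p P
  have hNsat := Cfsg.Agent.H88.normalizerSystem_saturated hS hFsat hfn _ hNsys
  have hNn := Cfsg.Agent.H88.normalizerSystem_isNormal hle₂ hNsys
  have hNc := Cfsg.Agent.H88.normalizerSystem_isCentric hc hNsys
  obtain ⟨L, _, ι, hmodel, -, -⟩ :=
    Cfsg.Agent.H90.exists_model (hS.to_le inf_le_left) hNsat hNn hNc
  refine hfree Q hfn hc _ hNsys L ι hmodel ?_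
  obtain ⟨hfin, ⟨hι, hreal⟩, -, -⟩ := hmodel
  have hfin' : Finite L := hfin
  have hQN : Q ≤ normalizerIn (P : Subgroup G) Q := Cfsg.Agent.H87.le_normalizerIn hle₂
  obtain ⟨Y₂, g₂, z₂, hw₂⟩ := hw'.transfer (ι.comp (Subgroup.inclusion hQN))
    (hι.comp (Subgroup.inclusion_injective hQN)) (fun y hy => by
      have hyQ : ∀ x ∈ Q, y * x * y⁻¹ ∈ Q := hw'.nh y hy
      have hφ : ∀ x : Q, conjHom Q y x ∈ normalizerIn (P : Subgroup G) Q :=
        fun x => hQN (hyQ x x.2)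
      have hmem : conjHom Q y ∈
          (Cfsg.Agent.H89.normalizerSystem (groupFusionSystem (P : Subgroup G)) Q hle₂).Hom Q := by
        show conjHom Q y ∈ (groupFusionSystem (P : Subgroup G)).normalizerHom Q Q
        refine ⟨⟨hle₂, fun x => hle₂ (hyQ x x.2), y, fun x => rfl⟩, hQN, hφ,
          conjHom (Q ⊔ Q) y, ⟨?_, ?_, y, fun x => rfl⟩, fun x => rfl, ?_⟩
        · rw [sup_idem]; exact hle₂
        · intro x
          have hx : (x : G) ∈ Q := (le_of_eq (sup_idem Q)) x.2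
          exact hle₂ (hyQ x hx)
        · ext w
          constructor
          · rintro ⟨x, hx, rfl⟩
            exact hyQ x (Subgroup.mem_subgroupOf.1 hx)
          · intro hw
            have hy' : y⁻¹ * w * y ∈ Q := by
              have := hw'.nh y⁻¹ (Y'.inv_mem hy) w hw
              simpa using this
            refine ⟨⟨y⁻¹ * w * y, (le_sup_left : Q ≤ Q ⊔ Q) hy'⟩,
              Subgroup.mem_subgroupOf.2 hy', ?_⟩
            show y * (y⁻¹ * w * y) * y⁻¹ = w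
            group
      obtain ⟨n, hn⟩ := (hreal Q hQN (conjHom Q y) hφ).1 hmem
      exact ⟨n, fun x => hn x⟩)
  exact hw₂.involves hp

end Cfsg.Agent.H38
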