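import Mathlib
import Cfsg.Prelude.Def_LocalEven
import Cfsg.Agent.H38.QdNotStable
import Cfsg.Agent.H38.QdNat4
import Cfsg.Agent.H38.SylowConj
import Cfsg.Agent.H29.ThompsonInt

/-!
# In `Qd(p)`, `Z(J(T))` does not control strong fusion
-/

set_option autoImplicit false
set_option linter.unusedSectionVars false
set_option linter.unusedVariables false

namespace Cfsg.Agent.H38

open Matrix Cfsg.Agent.H51 Cfsg.Agent.H7 Cfsg.Agent.H29

open scoped MatrixGroups commutatorElement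

section QdZJ

variable {X : Type*} [Group X] {p : ℕ} [Fact p.Prime]

theorem qd_centralizer_ker_le (π : X →* affSub (ZMod p)) (hπs : Function.Surjective π) :
    Subgroup.centralizer ((qdRho π).ker : Set X) ≤ (qdRho π).ker := by
  intro x hx
  rw [MonoidHom.mem_ker]
  apply sl2_mulVec_faithful
  intro w
  obtain ⟨v, hv, hvw⟩ := exists_qdVec_eq hπs w
  have h1 : x * v * x⁻¹ = v := by
    have := (Subgroup.mem_centralizer_iff.mp hx) v hv
    rw [← this]; group
  have h2 := qdVec_conj π x hv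
  rw [h1, hvw] at h2
  rw [← h2, slz_mulVec_one]

theorem not_controls_zj_of_qd [Finite X] (hp2 : p ≠ 2) (π : X →* affSub (ZMod p))
    (hπs : Function.Surjective π) (hπi : Function.Injective π) (T : Sylow p X) :
    ¬ Cfsg.ControlsStrongFusion p (Cfsg.centerThompsonAOf (T : Subgroup X)) := by
  rintro ⟨T', hUT', hctl⟩
  rw [centerThompsonAOf_eq] at hUT' hctl
  have hp : p.Prime := Fact.out
  have hkerbot : π.ker = ⊥ := (MonoidHom.ker_eq_bot_iff π).mpr hπi
  have hVn : ((qdRho π).ker).Normal := MonoidHom.normal_ker _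
  have hVp : IsPGroup p (qdRho π).ker :=
    qd_ker_rho_isPGroup π (by rw [hkerbot]; exact IsPGroup.of_bot)
  have hVT : (qdRho π).ker ≤ (T : Subgroup X) := hVp.le_sylow_of_normal T
  have hVT' : (qdRho π).ker ≤ (T' : Subgroup X) := hVp.le_sylow_of_normal T'
  have hCV := qd_centralizer_ker_le π hπs
  have hVcard : Nat.card (qdRho π).ker = p ^ 2 := by
    rw [card_ker_rho hπs, hkerbot, Subgroup.card_bot, mul_one]
  have hVcomm : IsMulCommutative (qdRho π).ker := by
    refine ⟨⟨fun a b => Subtype.ext ?_⟩⟩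
    have h := qd_comm_mem_ker π a.2 b.2
    rw [hkerbot, Subgroup.mem_bot] at h
    show (a : X) * b = b * a
    calc (a : X) * b = (a * b * (a : X)⁻¹ * (b : X)⁻¹) * (b * a) := by group
      _ = b * a := by rw [h, one_mul]
  have hVab : (qdRho π).ker ∈ nAb 0 (T : Subgroup X) := ⟨hVT, hVcomm, fun a _ => pow_zero a⟩
  -- Step 1: strong closure
  have hclosed : ∀ u ∈ nZ 0 (T : Subgroup X), ∀ g v : X, v ∈ (T' : Subgroup X) →
      g * v * g⁻¹ = u → v ∈ nZ 0 (T : Subgroup X) := by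
    intro u hu g v hv hgv
    obtain ⟨-, h2⟩ := hctl {v} (Set.singleton_subset_iff.mpr hv)
    obtain ⟨x, hx, hxa⟩ := h2 g (by
      rintro _ ⟨a, ha, rfl⟩
      rw [Set.mem_singleton_iff.mp ha]
      show g * v * g⁻¹ ∈ (T' : Subgroup X)
      rw [hgv]
      exact hUT' hu)
    have h3 := hxa v rfl
    rw [hgv] at h3
    have h4 : v = x⁻¹ * u * x⁻¹⁻¹ := by rw [h3]; group
    rw [h4]
    exact (Subgroup.mem_normalizer_iff.mp (inv_mem hx) u).mp hu
  -- Step 0: `J` nontrivial, `U ≠ ⊥`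
  obtain ⟨A₀, hA₀⟩ := exists_mem_nMax 0 (T : Subgroup X)
  have hA₀card : p ^ 2 ≤ Nat.card A₀ := by rw [← hVcard]; exact hA₀.2 _ hVab
  have hJp : IsPGroup p (nJ 0 (T : Subgroup X)) := T.isPGroup'.to_le (nJ_le 0 _)
  have hJnt : Nontrivial (nJ 0 (T : Subgroup X)) := by
    have h1 : 1 < Nat.card A₀ := lt_of_lt_of_le (Nat.one_lt_pow (by norm_num) hp.one_lt) hA₀card
    have : Nontrivial A₀ := Finite.one_lt_card_iff_nontrivial.mp h1
    obtain ⟨a, ha⟩ := exists_ne (1 : A₀)
    exact ⟨⟨⟨a.1, le_nJ hA₀ a.2⟩, 1, fun h => ha (Subtype.ext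
      (congrArg (fun t : nJ 0 (T : Subgroup X) => (t : X)) h))⟩⟩
  have hcnt := hJp.center_nontrivial
  obtain ⟨z', hz'⟩ := exists_ne (1 : Subgroup.center (nJ 0 (T : Subgroup X)))
  obtain ⟨z, hzU, hz1⟩ : ∃ z ∈ nZ 0 (T : Subgroup X), z ≠ 1 := by
    refine ⟨((z' : nJ 0 (T : Subgroup X)) : X), ⟨(z' : nJ 0 (T : Subgroup X)).2, ?_, pow_zero _⟩,
      ?_⟩
    · refine Subgroup.mem_centralizer_iff.mpr ?_
      intro y hy
      have h1 := (Subgroup.mem_center_iff.mp z'.2) ⟨y, hy⟩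
      exact congrArg Subtype.val h1
    · intro h
      exact hz' (Subtype.ext (Subtype.ext h))
  -- Step 3: a nontrivial element of `U ∩ V`
  have hUnorm : ∀ t ∈ (T : Subgroup X), ∀ u ∈ nZ 0 (T : Subgroup X),
      t * u * t⁻¹ ∈ nZ 0 (T : Subgroup X) := by
    intro t ht u hu
    have := normalizer_le_normalizer_nZ 0 (T : Subgroup X) (Subgroup.le_normalizer ht)
    exact (Subgroup.mem_normalizer_iff.mp this u).mp hu
  obtain ⟨u, huU, huV, hu1⟩ : ∃ u ∈ nZ 0 (T : Subgroup X), u ∈ (qdRho π).ker ∧ u ≠ 1 := by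
    by_cases hzV : z ∈ (qdRho π).ker
    · exact ⟨z, hzU, hzV, hz1⟩
    · by_contra hcon
      push Not at hcon
      apply hzV
      apply hCV
      refine Subgroup.mem_centralizer_iff.mpr ?_
      intro v hv
      have h1 : z * v * z⁻¹ * v⁻¹ ∈ nZ 0 (T : Subgroup X) := by
        have : z * v * z⁻¹ * v⁻¹ = z * (v * z⁻¹ * v⁻¹) := by group
        rw [this]
        exact mul_mem hzU (hUnorm v (hVT hv) _ (inv_mem hzU))
      have h2 : z * v * z⁻¹ * v⁻¹ ∈ (qdRho π).ker := mul_mem (hVn.conj_mem v hv z) (inv_mem hv)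
      have h3 := hcon _ h1 h2
      have : z * v = v * z := by
        calc z * v = (z * v * z⁻¹ * v⁻¹) * (v * z) := by group
          _ = v * z := by rw [h3, one_mul]
      exact this.symm
  -- Step 4: `V ≤ U`
  have hN : (nZ 0 (T : Subgroup X) ⊓ (qdRho π).ker).Normal := by
    constructor
    intro n hn g
    refine ⟨?_, hVn.conj_mem n hn.2 g⟩
    exact hclosed n hn.1 g⁻¹ (g * n * g⁻¹) (hVT' (hVn.conj_mem n hn.2 g)) (by group)
  have hVU : (qdRho π).ker ≤ nZ 0 (T : Subgroup X) := by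
    rcases qd_eq_of_normal_between hπs (nZ 0 (T : Subgroup X) ⊓ (qdRho π).ker)
      (by rw [hkerbot]; exact bot_le) inf_le_right with h | h
    · exfalso
      have : u ∈ nZ 0 (T : Subgroup X) ⊓ (qdRho π).ker := ⟨huU, huV⟩
      rw [h, hkerbot, Subgroup.mem_bot] at this
      exact hu1 this
    · exact inf_eq_right.mp h
  -- Step 5: `J ≤ V`
  have hJV : nJ 0 (T : Subgroup X) ≤ (qdRho π).ker := by
    intro x hx
    apply hCV
    refine Subgroup.mem_centralizer_iff.mpr ?_
    intro v hv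
    have h1 := (mem_nZ.mp (hVU hv)).2.1
    exact ((Subgroup.mem_centralizer_iff.mp h1) x hx).symm
  -- an element of `T` outside `V`, and a commuting element of `V`
  obtain ⟨a₁, ha₁, -, hπa₁⟩ := exists_qd_preimage hπs (slUpper (1 : ZMod p))
  obtain ⟨c₁, hc₁, hc₁v⟩ := exists_qdVec_eq hπs ![1, 0]
  have ha₁p : a₁ ^ p = 1 := by
    apply hπi
    rw [map_pow, map_one, hπa₁]
    have hpow : ∀ n : ℕ, (mkAff (slUpper (1 : ZMod p)) 0) ^ n
        = mkAff (slUpper (1 : ZMod p) ^ n) 0 := by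
      intro n
      induction n with
      | zero => rw [pow_zero, pow_zero, mkAff_one_zero]
      | succ n ih => rw [pow_succ, ih, mkAff_mul_zero, pow_succ]
    rw [hpow, slUpper_pow_p, mkAff_one_zero]
  obtain ⟨n, -, hna⟩ := exists_conj_mem_sylow_of_le T ⊤ le_top a₁ (Subgroup.mem_top _) 1
    (by rw [pow_one]; exact ha₁p)
  obtain ⟨a, ha⟩ : ∃ a : X, a = n * a₁ * n⁻¹ := ⟨_, rfl⟩
  obtain ⟨c, hc⟩ : ∃ c : X, c = n * c₁ * n⁻¹ := ⟨_, rfl⟩
  rw [← ha] at hna
  have haV : a ∉ (qdRho π).ker := by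
    intro h
    have h1 : a₁ ∈ (qdRho π).ker := by
      have h2 := hVn.conj_mem a h n⁻¹
      have h3 : n⁻¹ * a * n⁻¹⁻¹ = a₁ := by rw [ha]; group
      rwa [h3] at h2
    rw [MonoidHom.mem_ker, ha₁] at h1
    exact slUpper_one_ne_one h1
  have hcV : c ∈ (qdRho π).ker := by rw [hc]; exact hVn.conj_mem c₁ hc₁ n
  have hc1 : c ≠ 1 := by
    intro h
    have h1 : c₁ = 1 := by
      have : c₁ = n⁻¹ * c * n := by rw [hc]; group
      rw [this, h]; group
    rw [h1, qdVec_one] at hc₁v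
    have := congrFun hc₁v 0
    simp at this
  have hac₁ : a₁ * c₁ = c₁ * a₁ := by
    have h1 : a₁ * c₁ * a₁⁻¹ = c₁ := by
      apply qd_eq_of_vec_eq π hπi (hVn.conj_mem c₁ hc₁ a₁) hc₁
      rw [qdVec_conj_upper π 1 ha₁ hc₁, hc₁v]
      ext i
      fin_cases i <;> simp
    calc a₁ * c₁ = a₁ * c₁ * a₁⁻¹ * a₁ := by group
      _ = c₁ * a₁ := by rw [h1]
  have hac : a * c = c * a := by
    rw [ha, hc]
    calc n * a₁ * n⁻¹ * (n * c₁ * n⁻¹) = n * (a₁ * c₁) * n⁻¹ := by group
      _ = n * (c₁ * a₁) * n⁻¹ := by rw [hac₁]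
      _ = n * c₁ * n⁻¹ * (n * a₁ * n⁻¹) := by group
  -- the abelian subgroup `B = ⟨a, c⟩`
  have hBc : IsMulCommutative (Subgroup.closure ({a, c} : Set X)) := by
    apply Subgroup.isMulCommutative_closure
    intro x hx y hy
    rcases hx with rfl | hx <;> rcases hy with rfl | hy
    · rfl
    · rw [Set.mem_singleton_iff.mp hy]; exact hac
    · rw [Set.mem_singleton_iff.mp hx]; exact hac.symm
    · rw [Set.mem_singleton_iff.mp hx, Set.mem_singleton_iff.mp hy]
  have hBT : Subgroup.closure ({a, c} : Set X) ≤ (T : Subgroup X) := by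
    rw [Subgroup.closure_le]
    rintro x (rfl | hx)
    · exact hna
    · rw [Set.mem_singleton_iff.mp hx]; exact hVT hcV
  have hBab : Subgroup.closure ({a, c} : Set X) ∈ nAb 0 (T : Subgroup X) :=
    ⟨hBT, hBc, fun b _ => pow_zero b⟩
  have hBcard : p ^ 2 ≤ Nat.card (Subgroup.closure ({a, c} : Set X)) := by
    have hlt : Subgroup.zpowers c < Subgroup.closure ({a, c} : Set X) := by
      refine lt_of_le_of_ne ?_ ?_
      · rw [Subgroup.zpowers_le]
        exact Subgroup.subset_closure (Set.mem_insert_of_mem _ (Set.mem_singleton _))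
      · intro h
        have : a ∈ Subgroup.zpowers c := by
          rw [h]; exact Subgroup.subset_closure (Set.mem_insert _ _)
        exact haV ((Subgroup.zpowers_le.mpr hcV) this)
    have h1 := card_lt_of_lt hlt
    have hcp : c ^ p = 1 := by
      have := qd_pow_p_mem_ker π hcV
      rw [hkerbot, Subgroup.mem_bot] at this
      exact this
    have h2 : Nat.card (Subgroup.zpowers c) = p := by
      rw [Nat.card_zpowers]; exact orderOf_eq_prime hcp hc1
    obtain ⟨k, hk⟩ := IsPGroup.iff_card.mp (T.isPGroup'.to_le hBT)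
    rw [hk, h2] at h1
    rw [hk]
    have hk2 : 2 ≤ k := by
      by_contra hk2
      have h3 : k ≤ 1 := by omega
      have h4 := Nat.pow_le_pow_right hp.pos h3
      rw [pow_one] at h4
      omega
    exact Nat.pow_le_pow_right hp.pos hk2
  have hBmax : Subgroup.closure ({a, c} : Set X) ∈ nMax 0 (T : Subgroup X) := by
    refine ⟨hBab, fun B' hB' => ?_⟩
    have h1 := hA₀.2 B' hB'
    have h2 : Nat.card A₀ ≤ p ^ 2 := by
      rw [← hVcard]
      exact Subgroup.card_le_of_le ((le_nJ hA₀).trans hJV)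
    omega
  exact haV (hJV (le_nJ hBmax (Subgroup.subset_closure (Set.mem_insert _ _))))

/-- In a group isomorphic to `Qd(p)` (`p` odd), `Z(J(T))` does not control strong fusion. -/
theorem not_controls_zj_of_equiv_qd [Finite X] (hp2 : p ≠ 2) (e : X ≃* ↥(Cfsg.qd p))
    (T : Sylow p X) :
    ¬ Cfsg.ControlsStrongFusion p (Cfsg.centerThompsonAOf (T : Subgroup X)) := by
  let e' : X ≃* ↥(affSub (ZMod p)) := e.trans (MulEquiv.subgroupCongr (qd_eq p))
  exact not_controls_zj_of_qd hp2 e'.toMonoidHom e'.surjective e'.injective T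

end QdZJ

end Cfsg.Agent.H38
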