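import Cfsg.Agent.H23.StbDefs

/-!
# S2125-ASM2 (piece for helper23): an automorphism mapping the root subgroup of each fundamental root and of
its negative to itself is, up to conjugation by a diagonal element, the entrywise action of a field
automorphism.
-/

set_option autoImplicit false

namespace Cfsg.Agent.H38.Stb

open Cfsg.Lie Cfsg.Agent.H23 Cfsg.Agent.H23.Stb

universe u

/-- Left multiplication by a nonzero scalar, as an additive equivalence. -/
def mulL {F : Type u} [Field F] (c : F) (hc : c ≠ 0) : F ≃+ F where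
  toFun t := c * t
  invFun t := c⁻¹ * t
  left_inv t := inv_mul_cancel_left₀ hc t
  right_inv t := mul_inv_cancel_left₀ hc t
  map_add' a b := mul_add c a b

theorem mulL_apply {F : Type u} [Field F] (c : F) (hc : c ≠ 0) (t : F) : mulL c hc t = c * t := rfl

theorem asm2 (h1 : StDiag.{u}) (h2 : StPsi.{u}) (h3 : StMult.{u}) : StAsm2.{u} := by
  intro D F _ z η rT w0 hC Ai hA1 hA2 hneg hrank hnb hconn hgen θ hθ
  classical
  have hS := hC.hP.sem
  choose! φ ψ hφ hψ using hθ
  have hφ1 : ∀ i, φ i 1 ≠ 0 := fun i => by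
    intro h0
    exact one_ne_zero ((φ i).map_eq_zero_iff.mp h0)
  obtain ⟨h, hh, hconj⟩ := h1 D F z η hC.hP Ai hA1 hA2 hneg (fun i => (φ i 1)⁻¹)
    (fun i _ => inv_ne_zero (hφ1 i))
  let hg : ↥(D.group F) := ⟨h, diagonal_le_group hS hh⟩
  let φ' : ℕ → F ≃+ F := fun i => (φ i).trans (mulL (φ i 1)⁻¹ (inv_ne_zero (hφ1 i)))
  let ψ' : ℕ → F ≃+ F := fun i => (ψ i).trans (mulL ((φ i 1)⁻¹)⁻¹ (inv_ne_zero (inv_ne_zero (hφ1 i))))
  have hφ' : ∀ i < D.rank, ∀ t, conjL hg θ (xG hS (D.simple i) t) = xG hS (D.simple i) (φ' i t) := by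
    intro i hi t
    rw [conjL_apply, hφ i hi t]
    apply Subtype.ext
    exact (hconj i hi (φ i t)).1
  have hψ' : ∀ i < D.rank, ∀ t,
      conjL hg θ (xG hS (D.neg (D.simple i)) t) = xG hS (D.neg (D.simple i)) (ψ' i t) := by
    intro i hi t
    rw [conjL_apply, hψ i hi t]
    apply Subtype.ext
    exact (hconj i hi (ψ i t)).2
  have hφ'1 : ∀ i, φ' i 1 = 1 := fun i => inv_mul_cancel₀ (hφ1 i)
  have hpsi := fun i hi => h2 D F z η rT w0 hC (conjL hg θ) i hi (φ' i) (ψ' i) (hφ' i hi) (hψ' i hi)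
    (hφ'1 i)
  have hmult := fun i hi j hj hz => h3 D F z η hC.hP (conjL hg θ) i j hi hj hz (φ' i) (φ' j)
    (hφ' i hi) (hpsi j hj).2.2 (hφ'1 i) (hpsi i hi).2.1
  have hmul : ∀ i < D.rank, ∀ a b, φ' i (a * b) = φ' i a * φ' i b := by
    intro i hi
    obtain ⟨j, hj, hz⟩ := hnb i hi
    exact (hmult i hi j hj hz).2
  have hall : ∀ i < D.rank, ∀ a, φ' i a = φ' 0 a := by
    apply hconn (fun i => ∀ a, φ' i a = φ' 0 a)
    · intro a; rfl
    · intro i hi j hj hz hP a
      rw [← (hmult i hi j hj hz).1 a, hP a]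
  let σ : F ≃+* F := { φ' 0 with map_mul' := hmul 0 hrank }
  have hσ : ∀ t, (σ : F →+* F) t = φ' 0 t := fun _ => rfl
  refine ⟨hg, σ, ?_⟩
  let b : ↥(D.group F) →* ↥(D.group F) :=
    ((glMap D (σ : F →+* F)).comp (D.group F).subtype).codRestrict (D.group F)
      (fun y => glMap_group_le hS hS _ (Subgroup.mem_map_of_mem _ y.2))
  have hab : (conjL hg θ).toMonoidHom = b := by
    apply hgen
    intro i hi t
    constructor
    · show conjL hg θ (xG hS (D.simple i) t) = _
      rw [hφ' i hi t]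
      apply Subtype.ext
      show xU hS (D.simple i) (φ' i t) = glMap D (σ : F →+* F) (xU hS (D.simple i) t)
      rw [glMap_xU hS hS, hσ, hall i hi t]
    · show conjL hg θ (xG hS (D.neg (D.simple i)) t) = _
      rw [hψ' i hi t]
      apply Subtype.ext
      show xU hS (D.neg (D.simple i)) (ψ' i t) = glMap D (σ : F →+* F) (xU hS (D.neg (D.simple i)) t)
      rw [glMap_xU hS hS, hσ, (hpsi i hi).1 t, hall i hi t]
  intro y
  exact congrArg (fun f : ↥(D.group F) →* ↥(D.group F) => ((f y : ↥(D.group F)) : GL D.Idx F)) hab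

end Cfsg.Agent.H38.Stb
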