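import Mathlib
import Cfsg.Agent.H83.UPDefs
import Cfsg.Agent.H99.Heis

/-!
# S6001-NGLUE (helper38, for helper83's team project S6001)

The normalizer of `R = P {ι^j • pauli v} P⁻¹` in `GL_4(F)` in terms of `Nrm`.
-/

set_option autoImplicit false
open scoped MatrixGroups

namespace Cfsg.Agent.H38.UP

open Matrix Cfsg.Agent.H83.UP

universe u

/-- S6001-NGLUE. -/
theorem nglue (hB : StPBasic.{u}) : StNGlue.{u} := by
  intro F _ R ι P h2 hι hR y
  have hι4 : ι ^ 4 = 1 := by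
    have h : ι ^ 4 = (ι ^ 2) ^ 2 := by ring
    rw [h, hι]
    ring
  have hPT : ∀ v : Fin 4 → ZMod 2, (pauli v : Matrix (Fin 4) (Fin 4) F)ᵀ * pauli v = 1 :=
    (hB F).2.2.2.2.1
  let u : (Fin 4 → ZMod 2) → GL (Fin 4) F := fun v =>
    ⟨pauli v, (pauli v)ᵀ, mul_eq_one_comm.mp (hPT v), hPT v⟩
  have hu : ∀ v, ((u v : GL (Fin 4) F) : Matrix (Fin 4) (Fin 4) F) = pauli v := fun v => rfl
  constructor
  · intro hy
    have hy0 : y ∈ Subgroup.normalizer (R : Set (GL (Fin 4) F)) := hy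
    refine ⟨?_, ?_⟩
    · exact (Matrix.isUnit_iff_isUnit_det _).mp (Units.isUnit _)
    · intro v
      have hg : P * u v * P⁻¹ ∈ R := by
        rw [hR]
        refine ⟨0, v, ?_⟩
        have h : P⁻¹ * (P * u v * P⁻¹) * P = u v := by group
        rw [h, hu, pow_zero, one_smul]
      have hy' : y * (P * u v * P⁻¹) * y⁻¹ ∈ R := (Subgroup.mem_normalizer_iff.mp hy0 _).mp hg
      rw [hR] at hy'
      obtain ⟨j, w, hjw⟩ := hy'
      refine ⟨j, w, ?_⟩
      have e : P⁻¹ * (y * (P * u v * P⁻¹) * y⁻¹) * P =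
          (P⁻¹ * y * P) * u v * (P⁻¹ * y * P)⁻¹ := by group
      rw [e] at hjw
      have h1 : (((P⁻¹ * y * P) * u v * (P⁻¹ * y * P)⁻¹ : GL (Fin 4) F) :
            Matrix (Fin 4) (Fin 4) F) *
          ((P⁻¹ * y * P : GL (Fin 4) F) : Matrix (Fin 4) (Fin 4) F) =
          ((P⁻¹ * y * P : GL (Fin 4) F) : Matrix (Fin 4) (Fin 4) F) * pauli v := by
        rw [← Units.val_mul, ← hu v, ← Units.val_mul]
        congr 1
        group
      rw [← h1, hjw, Matrix.smul_mul]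
  · intro hN
    obtain ⟨-, hN⟩ := hN
    have hfin : Finite R := by
      classical
      have hex : ∀ g : R, ∃ jv : Fin 4 × (Fin 4 → ZMod 2),
          ((P⁻¹ * (g : GL (Fin 4) F) * P : GL (Fin 4) F) : Matrix (Fin 4) (Fin 4) F) =
            ι ^ (jv.1 : ℕ) • pauli jv.2 := by
        intro g
        obtain ⟨j, v, hjv⟩ := (hR g).mp g.2
        refine ⟨(⟨j % 4, Nat.mod_lt _ (by norm_num)⟩, v), ?_⟩
        rw [hjv]
        congr 1
        conv_lhs => rw [← Nat.div_add_mod j 4, pow_add, pow_mul, hι4, one_pow, one_mul]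
      choose f hf using hex
      apply Finite.of_injective f
      intro g g' hgg
      have h1 := hf g
      have h2' := hf g'
      rw [hgg] at h1
      have h3 : (P⁻¹ * (g : GL (Fin 4) F) * P : GL (Fin 4) F) =
          P⁻¹ * (g' : GL (Fin 4) F) * P := Units.ext (h1.trans h2'.symm)
      have h4 : (g : GL (Fin 4) F) = g' := by
        have h5 := congrArg (fun t => P * t * P⁻¹) h3
        simpa [mul_assoc] using h5
      exact Subtype.ext h4
    show y ∈ Subgroup.normalizer (R : Set (GL (Fin 4) F))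
    apply Cfsg.Agent.H99.mem_normalizer_of_finite
    intro g hg
    obtain ⟨j, v, hjv⟩ := (hR g).mp hg
    obtain ⟨j', w, hjw⟩ := hN v
    rw [hR]
    refine ⟨j + j', w, ?_⟩
    have e : P⁻¹ * (y * g * y⁻¹) * P =
        (P⁻¹ * y * P) * (P⁻¹ * g * P) * (P⁻¹ * y * P)⁻¹ := by group
    rw [e, Units.val_mul, Units.val_mul, hjv, Matrix.mul_smul, hjw, smul_smul, ← pow_add,
      Matrix.smul_mul, Matrix.mul_assoc, ← Units.val_mul, mul_inv_cancel, Units.val_one,
      Matrix.mul_one]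

example (hB : StPBasic.{u}) :
    ∀ (F : Type u) [Field F] (R : Subgroup (GL (Fin 4) F)) (ι : F) (P : GL (Fin 4) F),
    (2 : F) ≠ 0 → ι ^ 2 = -1 →
    (∀ g : GL (Fin 4) F, g ∈ R ↔ ∃ (j : ℕ) (v : Fin 4 → ZMod 2),
      ((P⁻¹ * g * P : GL (Fin 4) F) : Matrix (Fin 4) (Fin 4) F) = ι ^ j • pauli v) →
    ∀ y : GL (Fin 4) F, y ∈ Cfsg.Geo.subgroupNormalizer R ↔
      Nrm ι ((P⁻¹ * y * P : GL (Fin 4) F) : Matrix (Fin 4) (Fin 4) F) := nglue hB

end Cfsg.Agent.H38.UP
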